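import Cfsg.Agent.H10.BsK
import Cfsg.Agent.H8.Bs0

/-! `H10.Bs.s4372`: base size two for coprime action of a solvable group, from `H8.Bs.Main`. -/

set_option autoImplicit false

namespace H10.Bs
open Cfsg H18 H1 Subgroup

universe u v

theorem m2 (h : H8.Bs.Main.{u}) : M2.{u} := fun G _ _ V A a b c d => by
  obtain ⟨v, w, h1, h2, h3⟩ := h G V A a b.norm c d (H21.Rb.CR.of_min b)
  exact ⟨v, h1, w, h2, fun x hx => h3 x hx.1.1 (by rw [mem_C1.1 hx.1.2, mul_inv_cancel_right])
    (by rw [mem_C1.1 hx.2, mul_inv_cancel_right])⟩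

theorem s4372 (h : H8.Bs.Main.{max u v}) {A : Type u} {K : Type v} [Group A] [Finite A] [Group K] [Finite K]
    [MulDistribMulAction A K] [FaithfulSMul A K] (hA : Group.IsSolvable A)
    (hcop : (Nat.card A).Coprime (Nat.card K)) : ∃ x y : K, ∀ a : A, a • x = x → a • y = y → a = 1 :=
  s4372_of (m2 h) hA hcop

end H10.Bs
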