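import Cfsg.Agent.H8.Bs1

/-! `H10.BsX1.x1 : H8.Bs.X1`: existence of the structure `PS`. -/

set_option autoImplicit false

namespace H10.BsX1
open Subgroup Cfsg H18 H21 H21.Rb H8.Bs
open scoped commutatorElement

universe u

section
variable {G : Type*} [Group G] [Finite G] {A Z X : Subgroup G}

theorem sq (hX : Chief A Z X) (cZ : Cyc Z) (XC : X ≤ C(Z)) (dX : ⁅X, X⁆ ≤ Z)
    (mx : ∀ Y, Y ⊴ A → Abel Y → Z ≤ Y → Y = Z) (h4 : ∀ z ∈ Z, z ^ 4 = 1) : ∀ x ∈ X, x ^ 2 ∈ Z ∧ x ^ 4 = 1 := by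
  classical
  have cm : ∀ {x y}, x ∈ X → y ∈ X → ⁅x, y⁆ ∈ Z := fun hx hy => dX (commutator_mem_commutator hx hy)
  have cz : ∀ {x z}, x ∈ X → z ∈ Z → Commute x z := fun hx hz => (mem_C.1 (XC hx) _ hz).symm
  have sqm : ∀ {x y}, x ∈ X → y ∈ X → (x * y) ^ 2 = ⁅x, y⁆⁻¹ * (x ^ 2 * y ^ 2) := fun {x y} hx hy => by
    have := (cz hx (cm hx hy)).inv_right.eq
    calc _ = x * ⁅x, y⁆⁻¹ * (x * y ^ 2) := by simp only [commutatorElement_def, pow_two]; group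
      _ = _ := by rw [this, pow_two x]; group
  have s2 : ∀ x ∈ X, x ^ 2 ∈ Z := by
    let K : Subgroup G :=
      { carrier := {x | x ∈ X ∧ x ^ 2 ∈ Z}
        mul_mem' := fun {x y} hx hy => ⟨mul_mem hx.1 hy.1, by
          rw [sqm hx.1 hy.1]; exact mul_mem (inv_mem (cm hx.1 hy.1)) (mul_mem hx.2 hy.2)⟩
        one_mem' := ⟨one_mem _, by simp⟩
        inv_mem' := fun {x} hx => ⟨inv_mem hx.1, by rw [inv_pow]; exact inv_mem hx.2⟩ }
    rcases hX.eq_or_eq (W := K) (fun z hz => ⟨hX.le hz, pow_mem hz 2⟩) (fun x hx => hx.1)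
      (fun a ha => mem_N_of_finite fun x hx => ⟨conj_mem hX.nmlU.norm ha hx.1, by
        rw [conj_pow]; exact conj_mem hX.nmlV.norm ha hx.2⟩) with e | e
    · exfalso
      have k : ∀ x ∈ X, x ^ 2 ∈ Z → x ∈ Z := fun x hx h => e ▸ (show x ∈ K from ⟨hx, h⟩)
      have zx : X ⊓ C(X) = Z := mx _ ⟨inf_le_left.trans hX.nmlU.le, norm_inf hX.nmlU.norm (norm_C hX.nmlU.norm)⟩
        (inf_le_right.trans (C_anti inf_le_left)) (le_inf hX.le (cent_symm XC))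
      refine hX.lt.not_ge fun x hx => k x hx (k _ (pow_mem hx 2) ?_)
      rw [← pow_mul, ← zx]
      refine mem_inf.2 ⟨pow_mem hx _, mem_C.2 fun y hy => (commutatorElement_eq_one_iff_mul_comm.1 ?_).symm⟩
      rw [comm_pow_left (cz hx (cm hx hy)), h4 _ (cm hx hy)]
    · exact fun x hx => (show x ∈ K from e ▸ hx).2
  have c2 : ∀ {x y}, x ∈ X → y ∈ X → ⁅x, y⁆ ^ 2 = 1 := fun {x y} hx hy => by
    rw [← comm_pow_left (cz hx (cm hx hy))]
    exact commutatorElement_eq_one_iff_commute.2 (cz hy (s2 x hx)).symm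
  have qm : ∀ {x y}, x ∈ X → y ∈ X → (x * y) ^ 4 = x ^ 4 * y ^ 4 := fun {x y} hx hy => by
    have a1 : Commute ⁅x, y⁆⁻¹ (x ^ 2 * y ^ 2) :=
      (cz (mul_mem (pow_mem hx 2) (pow_mem hy 2)) (inv_mem (cm hx hy))).symm
    have a2 : Commute (x ^ 2) (y ^ 2) := cz (pow_mem hx 2) (s2 y hy)
    rw [show 4 = 2 * 2 from rfl, pow_mul, sqm hx hy, a1.mul_pow, a2.mul_pow, inv_pow, c2 hx hy, inv_one, one_mul,
      ← pow_mul, ← pow_mul]
  let K : Subgroup G :=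
    { carrier := {x | x ∈ X ∧ x ^ 4 = 1}
      mul_mem' := fun {x y} hx hy => ⟨mul_mem hx.1 hy.1, by rw [qm hx.1 hy.1, hx.2, hy.2, one_mul]⟩
      one_mem' := ⟨one_mem _, by simp⟩
      inv_mem' := fun {x} hx => ⟨inv_mem hx.1, by rw [inv_pow, hx.2, inv_one]⟩ }
  rcases hX.eq_or_eq (W := K) (fun z hz => ⟨hX.le hz, h4 z hz⟩) (fun x hx => hx.1)
    (fun a ha => mem_N_of_finite fun x hx => ⟨conj_mem hX.nmlU.norm ha hx.1, by
      rw [conj_pow, hx.2]; group⟩) with e | e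
  · exfalso
    have k : ∀ x ∈ X, x ^ 4 = 1 → x ∈ Z := fun x hx h => e ▸ (show x ∈ K from ⟨hx, h⟩)
    have m4 : ∀ x ∈ X, x ^ 4 ∈ Z := fun x hx => by
      rw [show 4 = 2 * 2 from rfl, pow_mul]; exact pow_mem (s2 x hx) 2
    have p8 : ∀ x ∈ X, (x ^ 4) ^ 2 = 1 := fun x hx => by
      rw [← pow_mul, mul_comm, pow_mul]; exact h4 _ (s2 x hx)
    refine hX.lt.ne' (mx X hX.nmlU (fun x hx => mem_C.2 fun y hy => ?_) hX.le)
    by_cases xz : x ∈ Z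
    · exact cz hy xz
    by_cases yz : y ∈ Z
    · exact (cz hx yz).symm
    haveI := Fact.mk Nat.prime_two
    have o : orderOf (x ^ 4) = 2 := orderOf_eq_prime (p8 x hx) fun h => xz (k x hx h)
    have := cZ.mem_of_pow (zpowers_le.2 (m4 x hx)) (m4 y hy) (by rw [card_zpowers', o, p8 y hy])
    rw [mem_zpowers_iff_mem_range_orderOf, o] at this
    obtain ⟨i, hi, e⟩ := Finset.mem_image.1 this
    have hi := Finset.mem_range.1 hi
    interval_cases i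
    · exact absurd (k y hy (by simpa using e.symm)) yz
    · have a : x * y ∈ Z := k _ (mul_mem hx hy) (by
        rw [qm hx hy, ← e, pow_one, ← pow_two, p8 x hx])
      have := (cz hx a).eq
      rw [mul_assoc, mul_right_inj] at this
      exact this.symm
  · exact fun x hx => ⟨s2 x hx, (show x ∈ K from e ▸ hx).2⟩

end

theorem x1 : X1.{u} := fun G _ _ V A hV hm hs hf ho hc => by
  obtain ⟨Z, -, ⟨nZ, aZ⟩, hZ⟩ := exists_maximal_sub (A := ⊥) (fun X => X ⊴ A ∧ Abel X) ⟨Nml.bot, abel_bot⟩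
  obtain ⟨E, -, ⟨nE, ZE, EC, der, s⟩, hE⟩ := exists_maximal_sub (A := Z)
    (fun X => X ⊴ A ∧ Z ≤ X ∧ X ≤ C(Z) ∧ ⁅X, X⁆ ≤ Z ∧ ((∀ z ∈ Z, z ^ 4 = 1) → ∀ e ∈ X, e ^ 2 ∈ Z ∧ e ^ 4 = 1))
    ⟨nZ, le_rfl, aZ, der_le, fun h e he => ⟨pow_mem he 2, h e he⟩⟩
  refine ⟨Z, E, hV, hm.norm, ho, nE, nZ, hc Z nZ aZ, ZE, EC, der, ?_, fun z hz z1 => ?_, s⟩
  · by_contra h
    have ZC : Z ≤ A ⊓ C(E) := le_inf nZ.le (cent_symm EC)
    obtain ⟨X, hX, XC⟩ := exists_chief_above nZ nE.cent (lt_of_le_not_ge ZC h)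
    have dX : ⁅X, X⁆ ≤ Z := (abel_quo_iff (hX.nmlU.le.trans nZ.norm)).1
      (hX.minNorm.abel (hs.of_le hX.nmlU.le).mim)
    have XE : X ≤ C(E) := XC.trans inf_le_right
    have := hE (E ⊔ X) ⟨nE.sup hX.nmlU, ZE.trans le_sup_left, sup_le EC (XE.trans (C_anti ZE)), by
      rw [der_sup, comm_eq_bot_iff.2 (cent_symm XE), sup_bot_eq]; exact sup_le der dX, fun h4 e he => by
        obtain ⟨a, ha, b, hb, rfl⟩ := (mem_sup_of_cent (cent_symm XE)).1 he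
        have k := sq hX (hc Z nZ aZ) (XE.trans (C_anti ZE)) dX (fun Y h1 h2 h3 => hZ Y ⟨h1, h2⟩ h3) h4 b hb
        have ab : Commute a b := mem_C.1 (XE hb) a ha
        rw [ab.mul_pow, ab.mul_pow, (s h4 a ha).2, k.2, one_mul]
        exact ⟨mul_mem (s h4 a ha).1 k.1, rfl⟩⟩ le_sup_left
    have aX : Abel X := XE.trans (C_anti (le_sup_right.trans this.le))
    exact hX.lt.ne' (hZ X ⟨hX.nmlU, aX⟩ hX.le)
  · have nz : A ≤ N(zpowers z) := (hc Z nZ aZ).norm_sub (zpowers_le.2 hz) nZ.norm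
    refine (hm.eq_bot_or inf_le_left (norm_inf hm.norm (C_zpowers (x := z) ▸ norm_C nz))).resolve_right
      fun e => z1 (eq_one_of_eq_bot hf ⟨nZ.le hz, le_C1_iff.1 (e ▸ inf_le_right)⟩)

end H10.BsX1
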