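import Cfsg.Agent.H10.DG4
import Cfsg.Prelude.Def_CaseTheorems
/-! Groups of order 12096 without elements of order 14, 21: `H10.exists_normal_6048`,
`isNGroup_6048`. -/

namespace H10
open H5 Cfsg Subgroup

universe u
variable {G : Type u} [Group G] [Finite G]

/-- Elements of order divisible by seven have order seven. -/
def CC7 (G : Type*) [Group G] : Prop := ∀ g : G, 7 ∣ orderOf g → orderOf g = 7

omit [Finite G] in
theorem CC7.sub (h : CC7 G) (H : Subgroup G) : CC7 H := fun g hg => by
  rw [← orderOf_coe] at hg ⊢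
  exact h _ hg

theorem CC7.inf_C (h : CC7 G) {P M : Subgroup G} (hP : Nat.card P = 7) (hM : ¬ 7 ∣ Nat.card M) :
    M ⊓ 𝐂[P] = ⊥ := by
  refine eq_bot_iff.2 fun y hy => ?_
  obtain ⟨x, hx, h1⟩ := exists_mem_orderOf_eq P (p := 7) (by norm_num) hP.symm.dvd
  have h2 : ¬ 7 ∣ orderOf y := fun e => hM (e.trans (orderOf_dvd_natCard M hy.1))
  have h3 := orderOf_mul_of_commute (hy.2 x hx) h1 rfl
    ((Nat.Prime.coprime_iff_not_dvd (by norm_num)).2 h2)
  have := h _ (h3 ▸ dvd_mul_right _ _)
  exact mem_bot.2 (orderOf_eq_one_iff.1 (by omega))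

theorem CC7.C_le (h : CC7 G) (P : Sylow 7 G) (hP : Nat.card (P : Subgroup G) = 7) :
    𝐂[(P : Subgroup G)] ≤ P := fun y hy => by
  by_cases h1 : 7 ∣ orderOf y
  · have h2 : IsPGroup 7 (zpowers y) := IsPGroup.of_card (n := 1) (by rw [Nat.card_zpowers, h _ h1]; rfl)
    rw [← P.is_maximal' (h2.to_sup_of_normal_right' P.isPGroup'
      ((zpowers_le_of_mem hy).trans (centralizer_le_normalizer _))) le_sup_right]
    exact mem_sup_left (mem_zpowers y)
  · have := h.inf_C (M := zpowers y) hP (by rwa [Nat.card_zpowers])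
    rw [mem_bot.1 (this ▸ ⟨mem_zpowers y, hy⟩ : y ∈ (⊥ : Subgroup G))]
    exact one_mem _

theorem CC7.card_of (h : CC7 G) (hG : Nat.card G ∣ 12096) {P M : Subgroup G} (hP : Nat.card P = 7)
    (hn : P ≤ 𝐍[M]) (hM : ¬ 7 ∣ Nat.card M) :
    Nat.card M = 1 ∨ Nat.card M = 8 ∨ Nat.card M = 64 := by
  have h0 := (card_subgroup_dvd_card M).trans hG
  have h1 := dvd_card_sub hP hn
  rw [h.inf_C hP hM, card_bot] at h1
  obtain ⟨Q, h2, h3⟩ := exists_sylowIn_le_C hP hn hM (q := 3) fun i h1 h2 => by
    have h3 : i < 4 := by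
      by_contra h3
      have := ((pow_dvd_pow 3 (not_lt.1 h3)).trans h2).trans h0
      norm_num at this
    interval_cases i <;> norm_num
  have h4 := h2.not_dvd
  rw [show Q = ⊥ from eq_bot_iff.2 (h.inf_C hP hM ▸ le_inf h2.le h3), relIndex_bot_left] at h4
  exact (by decide +kernel : ∀ n ∈ Nat.divisors 12096, ¬ 3 ∣ n → 7 ∣ n - 1 →
    n = 1 ∨ n = 8 ∨ n = 64) _ (Nat.mem_divisors.2 ⟨h0, by norm_num⟩) h4 h1

theorem CC7.card_sylow (h : CC7 G) (hG : Nat.card G = 12096) : Nat.card (Sylow 7 G) = 288 := by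
  obtain ⟨P⟩ : Nonempty (Sylow 7 G) := inferInstance
  have hP := sylow_card_of (a := 1) (m := 1728) hG (by norm_num) P
  have h1 := card_sylow_mul_eq P
  have h2 := relIndex_centralizer_dvd (p := 7) hP
  rw [le_antisymm (h.C_le P hP) (comm_of_card_prime (p := 7) hP)] at h1 h2
  have h3 := card_sylow_modEq_one 7 G
  rw [hP, hG] at h1
  unfold Nat.ModEq at h3
  have h4 := Nat.le_of_dvd (by norm_num) h2
  generalize (P : Subgroup G).relIndex _ = e at *
  interval_cases e <;> omega

theorem CC7.le_of_normal (h : CC7 G) (hG : Nat.card G = 12096) (P : Sylow 7 G) (M : Subgroup G)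
    [M.Normal] (hM : M ≠ ⊥) : (P : Subgroup G) ≤ M := by
  have hP := sylow_card_of (a := 1) (m := 1728) hG (by norm_num) P
  have key : ∀ (K : Subgroup G) [K.Normal], 7 ∣ Nat.card K → (P : Subgroup G) ≤ K := fun K _ h1 =>
    sylow_le_of_not_dvd K (fun h2 => by
      have := Nat.mul_dvd_mul h1 h2
      rw [card_mul_index, hG] at this
      norm_num at this) P
  refine key M (by_contra fun h1 => ?_)
  rcases h.card_of hG.dvd hP le_normalizer_of_normal h1 with e | e | e
  · exact hM (card_eq_one.1 e)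
  · have h2 := relIndex_centralizer_dvd_factorial M
    rw [normalizer_eq_top, relIndex_top_right, e] at h2
    have h3 : ¬ 7 ∣ Nat.card 𝐂[M] := fun h3 => hM (eq_bot_iff.2 (h.inf_C hP h1 ▸
      le_inf le_rfl (le_centralizer_iff.1 (key _ h3))))
    have h4 := card_mul_index 𝐂[M]
    have h5 : 27 ∣ (𝐂[M]).index := by
      rcases h.card_of hG.dvd hP le_normalizer_of_normal h3 with e | e | e <;>
        rw [e, hG] at h4 <;> omega
    exact absurd (h5.trans h2) (by decide +kernel)
  · have h2 := card_mul_index M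
    rw [e, hG] at h2
    have := normal_sup_of_ns_quot M (ns_of_list' (n := 189) (by decide +kernel)
      (by rw [← index, show M.index = 189 by omega])) P
    have h3 := card_sylow_dvd_relIndex_of_normal _ P (le_sup_left (b := M))
    have h4 := card_mul_index ((P : Subgroup G).subgroupOf ((P : Subgroup G) ⊔ M))
    have h5 := card_mul_index (M.subgroupOf ((P : Subgroup G) ⊔ M))
    rw [Nat.card_congr (subgroupOfEquivOfLe le_sup_left).toEquiv, ← relIndex, hP] at h4
    rw [Nat.card_congr (subgroupOfEquivOfLe le_sup_right).toEquiv, ← relIndex, relIndex_sup_right,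
      e] at h5
    have h6 := Nat.le_of_dvd Nat.card_pos (relIndex_dvd_card M (P : Subgroup G))
    rw [h.card_sylow hG] at h3
    have h7 := Nat.le_of_dvd (Nat.pos_of_ne_zero index_ne_zero_of_finite) h3
    rw [← relIndex] at h7
    omega

theorem CC7.exists_normal_6048 (h : CC7 G) (hG : Nat.card G = 12096) : ∃ N : Subgroup G,
    ∃ _ : N.Normal, IsSimpleGroup N ∧ Nat.card N = 6048 ∧ 𝐂[N] = ⊥ := by
  obtain ⟨P⟩ : Nonempty (Sylow 7 G) := inferInstance
  have hP := sylow_card_of (a := 1) (m := 1728) hG (by norm_num) P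
  obtain ⟨M, _, h1, h2⟩ := exists_normal_of_not_simple (G := G) (fun _ => not_kills
    (not_comm_of_simple_of_not_prime (G := G) (by rw [hG]; norm_num)) 110 1 7
      (by rw [hG]; decide +kernel)) (by omega)
  set N := normalClosure ((P : Subgroup G) : Set G) with hN
  have h3 : (P : Subgroup G) ≤ N := le_normalClosure
  have h4 : N ≤ M := normalClosure_le_normal (h.le_of_normal hG P M ((one_lt_card_iff_ne_bot M).1 h1))
  have h5 : Nat.card N = 2016 ∨ Nat.card N = 4032 ∨ Nat.card N = 6048 := by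
    obtain ⟨k, hk⟩ := card_sylow_dvd_relIndex_of_normal N P h3
    have h5 := card_mul_index ((P : Subgroup G).subgroupOf N)
    rw [Nat.card_congr (subgroupOfEquivOfLe h3).toEquiv, ← relIndex, hP, hk, h.card_sylow hG] at h5
    have h6 := card_le_of_le h4
    have h7 := card_mul_index M
    have h8 := Nat.card_pos (α := N)
    rw [hG] at h7
    have : 2 * Nat.card M ≤ 12096 := by nlinarith
    omega
  have : Nontrivial N := Finite.one_lt_card_iff_nontrivial.1 (by omega)
  have h6 : IsSimpleGroup N := ⟨fun K hK => or_iff_not_imp_left.2 fun h6 => by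
    by_cases h7 : 7 ∣ Nat.card K
    · have h8 : ¬ 7 ∣ K.index := fun h2 => by
        have := Nat.mul_dvd_mul h7 h2
        rw [card_mul_index] at this
        omega
      have h9 : N ≤ K.map N.subtype := (closure_le _).2 fun x hx => by
        obtain ⟨y, hy, c⟩ := Group.mem_conjugatesOfSet_iff.1 hx
        obtain ⟨g, rfl⟩ := isConj_iff.1 c
        have h9 := h.le_of_normal hG (g • P) N (by rintro e; simp [e] at h5)
        have h10 : g * y * g⁻¹ ∈ ((g • P : Sylow 7 G) : Subgroup G) :=
          smul_mem_pointwise_smul y (MulAut.conj g) _ hy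
        exact ⟨⟨_, h9 h10⟩, sylow_le_of_not_dvd K h8 ((g • P).subtype h9) h10, rfl⟩
      exact eq_top_iff.2 fun x _ => by
        obtain ⟨y, h1, h2⟩ := h9 x.2
        exact Subtype.ext h2 ▸ h1
    · have h8 : Nat.card K ∣ 2 ^ 6 := by
        rcases h.card_of hG.dvd hP (M := K.map N.subtype) (h3.trans ((normal_subgroupOf_iff_le_normalizer (map_subtype_le K)).1
          (by rwa [← comap_subtype, comap_map_eq_self_of_injective (subtype_injective _)])))
          (by rwa [card_subtype]) with e | e | e <;> rw [card_subtype] at e <;> rw [e] <;> norm_num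
      obtain ⟨i, -, h9⟩ := (Nat.dvd_prime_pow Nat.prime_two).1 h8
      have h10 := h.le_of_normal hG P ((pCore 2 N).map N.subtype) fun e =>
        h6 (eq_bot_iff.2 ((H1.le_pCore (IsPGroup.of_card h9)).trans
          ((map_eq_bot_iff_of_injective _ (subtype_injective _)).1 e).le))
      obtain ⟨j, hj⟩ := IsPGroup.iff_card.1 ((H1.map_pCore_isPGroup 2 N).to_le h10)
      have := Nat.Prime.dvd_of_dvd_pow (p := 7) (by norm_num) ((hP.symm.trans hj) ▸ dvd_rfl : 7 ^ 1 ∣ 2 ^ j)
      omega⟩
  have h7 := card_small (not_comm_of_simple_of_not_prime (G := N) (by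
    rcases h5 with e | e | e <;> rw [e] <;> norm_num)) (by omega) (by
      rcases h5 with e | e | e <;> simp [e])
  refine ⟨N, inferInstance, h6, by rcases h5 with e | e | e <;> simp [e] at h7 ⊢, by_contra fun e => ?_⟩
  have := card_le_of_le ((le_centralizer_iff.1 (h.le_of_normal hG P _ e)).trans (h.C_le P hP))
  omega

theorem CC7.isNGroup_6048 [IsSimpleGroup G] (h : CC7 G) (hG : Nat.card G = 6048) : IsNGroup G := by
  rintro _ ⟨p, T, hp, h1, h2, rfl⟩
  have := Fact.mk hp
  by_contra h3
  have h4 : 𝐍[T] ≠ ⊤ := fun e => by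
    rcases (normalizer_eq_top_iff.1 e).eq_bot_or_eq_top with e | rfl
    · exact h2 e
    · have := (h1.of_equiv topEquiv).isNilpotent
      exact h3 inferInstance
  have h5 := card_mul_index 𝐍[T]
  have h6 := one_lt_index_of_ne_top h4
  have h7 := card_mul_index (T.subgroupOf 𝐍[T])
  rw [Nat.card_congr (subgroupOfEquivOfLe le_normalizer).toEquiv] at h7
  have h8 : ¬ Group.IsSolvable (𝐍[T] ⧸ T.subgroupOf 𝐍[T]) := fun e =>
    h3 ((Group.isSolvable_iff_subgroup_quotient _).2 ⟨by
      have := (h1.comap_subtype (K := 𝐍[T])).isNilpotent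
      exact (inferInstance : Group.IsSolvable (T.comap (𝐍[T]).subtype)), e⟩)
  have h9 := (card_subgroup_dvd_card 𝐍[T]).trans hG.dvd
  have h10 := Nat.le_of_dvd Nat.card_pos (card_quotient_dvd_card (T.subgroupOf 𝐍[T]))
  have h11 := Nat.card_pos (α := 𝐍[T])
  obtain ⟨m, h12, h13⟩ := exists_dvd_of_not_solv h8 (by nlinarith)
  obtain ⟨k, hk⟩ := ((by decide +kernel : ∀ m ∈ LS, m ∣ 6048 → 168 ∣ m) m h12
    (h13.trans ((card_quotient_dvd_card _).trans h9))).trans h13
  rw [← index] at hk
  obtain ⟨x, hx, h14⟩ := exists_mem_orderOf_eq 𝐍[T] (p := 7) (by norm_num)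
    ⟨Nat.card T * 24 * k, by rw [← h7, hk]; ring⟩
  have h15 : Nat.card T * 168 ∣ 6048 := Dvd.dvd.trans ⟨k, by rw [← h7, hk]; ring⟩ h9
  rcases h.card_of (by rw [hG]; norm_num) (P := zpowers x) (by rw [Nat.card_zpowers, h14])
    (zpowers_le_of_mem hx) (fun e => absurd ((Nat.mul_dvd_mul_right e 168).trans h15) (by norm_num))
    with e | e | e
  · exact h2 (card_eq_one.1 e)
  · rw [e] at h15; norm_num at h15
  · rw [e] at h15; norm_num at h15

end H10
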