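import Cfsg.Agent.H10.SL
import Cfsg.Prelude.Def_ClassicalGeometry
import Mathlib.LinearAlgebra.Matrix.Block
import Mathlib.LinearAlgebra.Matrix.GeneralLinearGroup.Card

/-! Standard maximal parabolic subgroups `par F n k` of `GL_n(F)`: `mem_par_iff`, `card_par`,
`isCoatom_par`, `card_stdSub`; `exists_vecMulVec_of_rank_one`; `card_GL_subtype`. -/

set_option autoImplicit false

namespace H10

open Matrix Subgroup
open scoped MatrixGroups commutatorElement

variable {F : Type*} [Field F]

theorem exists_vecMulVec_of_rank_one {m n : Type*} [Fintype n] {A : Matrix m n F}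
    (h : A.rank = 1) : ∃ a b, a ≠ 0 ∧ b ≠ 0 ∧ A = vecMulVec a b := by
  classical
  obtain ⟨a, ha, h'⟩ := finrank_eq_one_iff'.1 h
  choose c hc using fun j => h' ⟨A.mulVecLin (Pi.single j 1), LinearMap.mem_range_self _ _⟩
  have hA : A = vecMulVec a.1 c := by
    ext i j
    have := congrFun (congrArg Subtype.val (hc j)) i
    simp only [SetLike.val_smul, Pi.smul_apply, smul_eq_mul, mulVecLin_apply, mulVec_single_one,
      col_apply] at this
    rw [vecMulVec_apply, ← this, mul_comm]
  refine ⟨a.1, c, fun e => ha (Subtype.ext e), ?_, hA⟩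
  rintro rfl
  rw [show A = 0 from hA.trans (by ext; simp [vecMulVec_apply]), rank_zero] at h
  exact zero_ne_one h

theorem card_GL_subtype {ι : Type*} [Fintype ι] [DecidableEq ι] (P : Matrix ι ι F → Prop) :
    Nat.card {g : GL ι F // P g.1} = Nat.card {M : Matrix ι ι F // M.det ≠ 0 ∧ P M} :=
  Nat.card_congr ⟨fun g => ⟨g.1.1, g.1.det_ne_zero, g.2⟩,
    fun M => ⟨GeneralLinearGroup.mkOfDetNeZero M.1 M.2.1, M.2.2⟩, fun _ => Subtype.ext (Units.ext rfl),
    fun _ => rfl⟩

theorem card_GL_eq {ι : Type*} [Fintype ι] [DecidableEq ι] :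
    Nat.card (GL ι F) = Nat.card {M : Matrix ι ι F // M.det ≠ 0} :=
  Nat.card_congr ⟨fun g => ⟨g.1, g.det_ne_zero⟩,
    fun M => GeneralLinearGroup.mkOfDetNeZero M.1 M.2, fun _ => Units.ext rfl, fun _ => rfl⟩

variable (F) in
/-- The span of the first `k` basis vectors. -/
abbrev stdSub (n k : ℕ) : Set (Fin n → F) := {v | ∀ i : Fin n, k ≤ (i : ℕ) → v i = 0}

variable (F) in
/-- The stabiliser of the span of the first `k` basis vectors. -/
abbrev par (n k : ℕ) : Subgroup (GL (Fin n) F) :=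
  Cfsg.stabilizing (Cfsg.glToMat (Fin n) F) (stdSub F n k)

theorem card_stdSub {n k : ℕ} (hk : k ≤ n) : Nat.card (stdSub F n k) = Nat.card F ^ k := by
  obtain ⟨m, rfl⟩ := Nat.exists_eq_add_of_le hk
  rw [← Nat.card_fin k, ← Nat.card_fun, Nat.card_fin]
  refine Nat.card_congr ⟨fun v i => v.1 (Fin.castAdd m i), fun w => ⟨Fin.append w 0, fun i hi => ?_⟩,
    fun v => Subtype.ext (funext fun i => ?_), fun w => funext fun i => by simp⟩
  · induction i using Fin.addCases with
    | left i => exact absurd i.2 (not_lt.2 hi)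
    | right i => simp
  · induction i using Fin.addCases with
    | left i => simp
    | right i => simpa using (v.2 _ (by simp)).symm

theorem mulVec_mem_stdSub {n k : ℕ} {A : Matrix (Fin n) (Fin n) F}
    (h : ∀ i j : Fin n, k ≤ (i : ℕ) → (j : ℕ) < k → A i j = 0) {v : Fin n → F}
    (hv : v ∈ stdSub F n k) : A *ᵥ v ∈ stdSub F n k := fun i hi =>
  Finset.sum_eq_zero (s := Finset.univ) (f := fun j => A i j * v j) fun j _ => by
    by_cases hj : (j : ℕ) < k
    · rw [h i j hi hj, zero_mul]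
    · rw [hv j (not_lt.1 hj), mul_zero]

theorem mem_par_iff [Finite F] {n k : ℕ} {g : GL (Fin n) F} :
    g ∈ par F n k ↔ ∀ i j : Fin n, k ≤ (i : ℕ) → (j : ℕ) < k → g.1 i j = 0 := by
  refine ⟨fun h i j hi hj => ?_, fun h v => ⟨mulVec_mem_stdSub h, fun hv => ?_⟩⟩
  · have := (h (Pi.single j 1)).1 (fun l hl => Pi.single_eq_of_ne (by rintro rfl; omega) _) i hi
    simpa using this
  · have key : ∀ m : ℕ, ∀ w ∈ stdSub F n k, (g ^ m).1 *ᵥ w ∈ stdSub F n k := fun m => by
      induction m with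
      | zero => simp
      | succ m ih =>
        intro w hw
        rw [pow_succ', Units.val_mul, ← mulVec_mulVec]
        exact mulVec_mem_stdSub h (ih w hw)
    have := key (orderOf g - 1) _ hv
    change (g ^ (orderOf g - 1)).1 *ᵥ g.1 *ᵥ v ∈ _ at this
    rwa [mulVec_mulVec, ← Units.val_mul, ← pow_succ, Nat.sub_add_cancel (orderOf_pos g),
      pow_orderOf_eq_one, Units.val_one, one_mulVec] at this

theorem card_par [Finite F] (k m : ℕ) : Nat.card (par F (k + m) k) =
    Nat.card F ^ (k * m) * Nat.card (GL (Fin k) F) * Nat.card (GL (Fin m) F) := by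
  have h1 := card_GL_subtype (F := F) fun A : Matrix (Fin (k + m)) (Fin (k + m)) F =>
    ∀ i j : Fin (k + m), k ≤ (i : ℕ) → (j : ℕ) < k → A i j = 0
  rw [Nat.card_congr (Equiv.subtypeEquivRight fun g => mem_par_iff), h1, card_GL_eq, card_GL_eq,
    show Nat.card F ^ (k * m) = Nat.card (Matrix (Fin k) (Fin m) F) by
      rw [Matrix, Nat.card_fun, Nat.card_fun, Nat.card_fin, Nat.card_fin, ← pow_mul, mul_comm],
    ← Nat.card_prod, ← Nat.card_prod]
  symm
  refine Nat.card_eq_of_bijective (fun x => ⟨reindex finSumFinEquiv finSumFinEquiv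
    (fromBlocks x.1.2.1 x.1.1 0 x.2.1), ?_, fun i j hi hj => ?_⟩) ⟨fun x y h => ?_, fun M => ?_⟩
  · rw [det_reindex_self, det_fromBlocks_zero₂₁]
    exact mul_ne_zero x.1.2.2 x.2.2
  · induction i using Fin.addCases with
    | left i => exact absurd i.2 (not_lt.2 hi)
    | right i =>
      induction j using Fin.addCases with
      | left j => simp
      | right j => simp at hj
  · obtain ⟨h1, h2, -, h4⟩ := fromBlocks_inj.1 ((reindex _ _).injective (congrArg Subtype.val h))
    exact Prod.ext (Prod.ext h2 (Subtype.ext h1)) (Subtype.ext h4)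
  · set N := reindex finSumFinEquiv.symm finSumFinEquiv.symm M.1 with hN
    have h0 : N.toBlocks₂₁ = 0 := by
      ext i j
      exact M.2.2 _ _ (by simp) (by simp)
    have h2 : N = fromBlocks N.toBlocks₁₁ N.toBlocks₁₂ 0 N.toBlocks₂₂ := by
      rw [← h0, fromBlocks_toBlocks]
    have h3 : N.det ≠ 0 := by rw [hN, det_reindex_self]; exact M.2.1
    rw [h2, det_fromBlocks_zero₂₁] at h3
    refine ⟨⟨⟨N.toBlocks₁₂, N.toBlocks₁₁, left_ne_zero_of_mul h3⟩, N.toBlocks₂₂,
      right_ne_zero_of_mul h3⟩, Subtype.ext ?_⟩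
    simp only [← h2]
    simp [hN]

/-- The transvection `1 + u φ` as an element of `GL`. -/
noncomputable def tGL {ι : Type*} [Fintype ι] [DecidableEq ι] (u φ : ι → F) (h : φ ⬝ᵥ u = 0) :
    GL ι F :=
  ⟨1 + vecMulVec u φ, 1 - vecMulVec u φ,
    by simp [add_mul, mul_sub, vecMulVec_mul_vecMulVec, h],
    by simp [sub_mul, mul_add, vecMulVec_mul_vecMulVec, h]⟩

theorem conj_tGL {ι : Type*} [Fintype ι] [DecidableEq ι] (g : GL ι F) (u φ : ι → F)
    (h : φ ⬝ᵥ (g.1 *ᵥ u) = 0) :
    tGL (g.1 *ᵥ u) φ h = g * tGL u (φ ᵥ* g.1) (by rwa [← dotProduct_mulVec]) * g⁻¹ := by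
  rw [eq_mul_inv_iff_mul_eq]
  apply Units.ext
  simp [tGL, add_mul, mul_add, mul_vecMulVec, vecMulVec_mul]

theorem toGL_transvection {ι : Type*} [Fintype ι] [DecidableEq ι] {i j : ι} (hij : i ≠ j) (c : F) :
    SpecialLinearGroup.toGL (SpecialLinearGroup.transvection hij c) =
      tGL (Pi.single i 1) (Pi.single j c) (by simp [hij.symm]) := by
  apply Units.ext
  change transvection i j c = 1 + _
  rw [transvection]
  congr 1
  ext a b
  simp [-mul_ite, single, vecMulVec, ite_and, Pi.single_apply, eq_comm]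

theorem tGL_mem_par [Finite F] {n k : ℕ} {u φ : Fin n → F} (h : φ ⬝ᵥ u = 0)
    (h' : u ∈ stdSub F n k ∨ ∀ j : Fin n, (j : ℕ) < k → φ j = 0) : tGL u φ h ∈ par F n k :=
  mem_par_iff.2 fun i j hi hj => by
    have : i ≠ j := by rintro rfl; omega
    rcases h' with h' | h'
    · simp [tGL, vecMulVec_apply, h' i hi, this]
    · simp [tGL, vecMulVec_apply, h' j hj, this]

theorem transvection_mem_par [Finite F] {n k : ℕ} {i j : Fin n} (hij : i ≠ j) (c : F)
    (h : (i : ℕ) < k ∨ k ≤ (j : ℕ)) :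
    SpecialLinearGroup.toGL (SpecialLinearGroup.transvection hij c) ∈ par F n k := by
  rw [toGL_transvection]
  exact tGL_mem_par _ (h.imp (fun h l hl => Pi.single_eq_of_ne (by rintro rfl; omega) _)
    fun h l hl => Pi.single_eq_of_ne (by rintro rfl; omega) _)

theorem isCoatom_par [Finite F] {n k : ℕ} (hk0 : 0 < k) (hkn : k < n) : IsCoatom (par F n k) := by
  have hne : (⟨k, hkn⟩ : Fin n) ≠ ⟨0, by omega⟩ := fun e => hk0.ne' (congrArg Fin.val e)
  refine ⟨fun e => ?_, fun H hH => ?_⟩
  · have := mem_par_iff.1 (e.ge (mem_top (SpecialLinearGroup.toGL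
      (SpecialLinearGroup.transvection hne (1 : F))))) ⟨k, hkn⟩ ⟨0, by omega⟩ (le_refl k) hk0
    change transvection _ _ _ _ _ = _ at this
    simp [transvection, hne] at this
  obtain ⟨g, hg, hg'⟩ := SetLike.exists_of_lt hH
  rw [mem_par_iff] at hg'
  push Not at hg'
  obtain ⟨a, b, ha, hb, hab⟩ := hg'
  set v := g.1 *ᵥ Pi.single b 1 with hv
  have hva : v a ≠ 0 := by simpa [hv] using hab
  have h1 : ∀ φ h, tGL v φ h ∈ H := fun φ h => by
    rw [conj_tGL]
    exact mul_mem (mul_mem hg (hH.le (tGL_mem_par _ (.inl fun l hl =>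
      Pi.single_eq_of_ne (by rintro rfl; omega) _)))) (inv_mem hg)
  let s : GL (Fin n) F := GeneralLinearGroup.mkOfDetNeZero (updateCol 1 a v) (by
    rw [← cramer_apply, cramer_one]; exact hva)
  have hs : s ∈ H := hH.le (mem_par_iff.2 fun i j hi hj => by
    have h1 : j ≠ a := by rintro rfl; omega
    have h2 : i ≠ j := by rintro rfl; omega
    simp [s, updateCol_ne h1, h2])
  have hsv : (s⁻¹).1 *ᵥ v = Pi.single a 1 := by
    have : s.1 *ᵥ Pi.single a 1 = v := by ext i; simp [s]
    rw [← this, mulVec_mulVec, ← Units.val_mul, inv_mul_cancel, Units.val_one, one_mulVec]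
  have h2 : ∀ φ h, tGL (Pi.single a 1) φ h ∈ H := fun φ => by
    rw [← hsv]
    intro h
    rw [conj_tGL]
    exact mul_mem (mul_mem (inv_mem hs) (h1 _ _)) (inv_mem (inv_mem hs))
  have : Nontrivial (Fin n) := ⟨_, _, hne⟩
  have h3 : ∀ A : SL(n, F), SpecialLinearGroup.toGL A ∈ H := by
    refine SL_transvection_induction _ (fun i j hij c => ?_) fun A B hA hB => by
      rw [map_mul]; exact mul_mem hA hB
    by_cases h : (i : ℕ) < k ∨ k ≤ (j : ℕ)
    · exact hH.le (transvection_mem_par hij c h)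
    push Not at h
    by_cases hi : i = a
    · subst hi
      rw [toGL_transvection]; exact h2 _ _
    have hj : a ≠ j := by rintro rfl; omega
    rw [← one_mul c, ← commutator_transvection hij hi hj, map_commutatorElement]
    have e1 := hH.le (transvection_mem_par hi (1 : F) (.inr ha))
    have e2 : SpecialLinearGroup.toGL (SpecialLinearGroup.transvection hj c) ∈ H := by
      rw [toGL_transvection]; exact h2 _ _
    exact mul_mem (mul_mem (mul_mem e1 e2) (inv_mem e1)) (inv_mem e2)
  refine eq_top_iff.2 fun x _ => ?_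
  let d : GL (Fin n) F := GeneralLinearGroup.mkOfDetNeZero
    (diagonal (Function.update 1 a x.1.det)) (by
      rw [det_diagonal, Finset.prod_update_of_mem (Finset.mem_univ _)]; simp [x.det_ne_zero])
  have hd : d ∈ H := hH.le (mem_par_iff.2 fun i j hi hj =>
    diagonal_apply_ne _ (by rintro rfl; omega))
  obtain ⟨A, hA⟩ : x * d⁻¹ ∈ (SpecialLinearGroup.toGL : SL(n, F) →* _).range := by
    rw [range_toGL, MonoidHom.mem_ker, map_mul, map_inv, mul_inv_eq_one]
    apply Units.ext
    change x.1.det = (diagonal _).det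
    rw [det_diagonal, Finset.prod_update_of_mem (Finset.mem_univ _)]; simp
  rw [← inv_mul_cancel_right x d, ← hA]
  exact mul_mem (h3 A) hd

end H10
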