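import Cfsg.Agent.H10.GmP3a

/-! `H10.GmP3.p3 : H11.Gm.P3`: the degree bound for `G₂(q)` in characteristic three. -/
set_option autoImplicit false
set_option linter.unusedSectionVars false
namespace H10.GmP3
open H24 Module Matrix H11.Gm

variable {F G M : Type*} [Field F] [Group G] [AddCommGroup M] [Module ℂ M]
variable {S : Sy F G} {ρ : G →* End ℂ M} {ψ : AddChar F ℂ} {v : M} {a b c d : F}
variable [FiniteDimensional ℂ M] [Fintype F] (h3 : (3 : F) = 0) (hψ : ψ ≠ 1)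
include h3

theorem cube (s : F) : ∃ u : F, u ^ 3 = s :=
  (Finite.surjective_of_injective (f := fun u : F => u ^ 3) fun u w e => by
    have : (u - w) ^ 3 = 0 := by
      simp only at e
      linear_combination e - u * w * (u - w) * h3
    exact sub_eq_zero.1 (pow_eq_zero_iff (by decide) |>.1 this)) s

theorem ex_ne {U : Submodule ℂ M} (h : finrank ℂ U ≠ 0) : ∃ v ∈ U, v ≠ 0 :=
  Submodule.exists_mem_ne_zero_of_ne_bot fun e => h (by rw [e, finrank_bot])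

include hψ

theorem m_ne (hq : 9 ≤ Fintype.card F) (hx : ρ (S.x 11 1) ≠ 1) : N S ρ ψ 0 1 0 1 ≠ 0 := fun hm => by
  classical
  have P : ∀ c d : F, d ≠ 0 → ∀ v ∈ J S ρ ψ 11 d ⊓ J S ρ ψ 10 c, v ∈ J S ρ ψ 8 0 := fun c d hd v hv => by
    have h1 : J S ρ ψ 11 d ⊓ J S ρ ψ 10 c ≤ J S ρ ψ 9 0 :=
      le0 hψ (fun u _ hv => ⟨K h3 11 9 u hv.1, K h3 10 9 u hv.2⟩) fun b hb => by
        rw [← s8 h3 hψ, sc _ _ fun a => nA h3 hb hd, hm, mul_zero]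
    exact le0 (U := J S ρ ψ 11 d ⊓ J S ρ ψ 10 c ⊓ J S ρ ψ 9 0) hψ
      (fun u _ hv => ⟨⟨K h3 11 8 u hv.1.1, K h3 10 8 u hv.1.2⟩, K h3 9 8 u hv.2⟩)
      (fun a ha => (nC h3 hψ ha hd).trans hm) ⟨hv, h1 hv⟩
  have Q : ∀ c d : F, c ≠ 0 → ∀ v ∈ J S ρ ψ 11 d ⊓ J S ρ ψ 10 c, ∀ t, ρ (S.x 7 t) v = v := fun c d hc v hv t => by
    obtain ⟨e2, n2, k2⟩ := wy S ρ ψ 6 10 11
    obtain ⟨e3, n3, k3⟩ := wy S ρ ψ 6 11 10
    obtain ⟨e, -, k⟩ := S.wy (6, 7, 8) (by decide)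
    have := mem_J0.1 (P _ _ (div_ne_zero hc n2) _ ⟨k2 _ _ hv.2, k3 _ _ hv.1⟩) (e * t)
    refine inj (ρ := ρ) (S.n 6) ?_
    rw [← this, ← app, ← app, ← k t, inv_mul_cancel_right]
  have e1 : N S ρ ψ 0 0 1 1 ≠ 0 := fun e1 => hx (by
    have := le0 (S := S) (ρ := ρ) (r := 11) (U := ⊤) hψ (fun _ _ _ => Submodule.mem_top) fun d hd => by
      rw [← s11 h3 hψ]
      refine Finset.sum_eq_zero fun c _ => Finset.sum_eq_zero fun b _ => Finset.sum_eq_zero fun a _ => ?_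
      by_cases hb : b = 0
      · by_cases ha : a = 0
        · rw [ha, hb, nE h3 hd, ← nE h3 one_ne_zero, e1]
        · rw [hb, nC h3 hψ ha hd, hm]
      · rw [nA h3 hb hd, hm]
    exact LinearMap.ext fun v => mem_J0.1 (this Submodule.mem_top) 1)
  obtain ⟨v, hv, v0⟩ := ex_ne h3 e1
  obtain ⟨t, -, ht⟩ := Finset.exists_mem_notMem_of_card_lt_card (s := ({0, 1, -1} : Finset F)) (t := Finset.univ)
    (Finset.card_le_three.trans_lt (by rw [Finset.card_univ]; omega))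
  simp only [Finset.mem_insert, Finset.mem_singleton, not_or] at ht
  have w := T6 h3 t hv
  have : t - 2 * t ^ 2 = 0 := eq_zero_of_forall_addChar_mul hψ fun s => by
    obtain ⟨u, rfl⟩ := cube h3 s
    have e := e67 t u hv.2 hv.1.2 hv.1.1.2 hv.1.1.1
    rw [Q _ _ (by rw [mul_one]; exact sub_ne_zero.2 (Ne.symm ht.2.1)) _ w.1.1, Q _ _ one_ne_zero _ hv.1.1] at e
    have w0 : ρ (S.x 6 t) v ≠ 0 := fun e => v0 (inj (ρ := ρ) (S.x 6 t) (by rw [e, map_zero]))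
    have := smul_left_injective ℂ w0 ((one_smul ℂ _).trans e)
    rw [this]
    congr 1; ring
  have : t * (t + 1) = 0 := by linear_combination this + t ^ 2 * h3
  rcases mul_eq_zero.1 this with e | e
  · exact ht.1 e
  · exact ht.2.2 (eq_neg_of_add_eq_zero_left e)

theorem s6 : ∑ β, finrank ℂ ↥(T S ρ ψ a b c 0 ⊓ J S ρ ψ 6 β) = N S ρ ψ a b c 0 :=
  sum_fr hψ fun u _ hv => by simpa using T6 h3 u hv

theorem s7 : ∑ β, finrank ℂ ↥(T S ρ ψ a 0 c d ⊓ J S ρ ψ 7 β) = N S ρ ψ a 0 c d :=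
  sum_fr hψ fun u _ hv => by simpa using T7 h3 u hv

omit hψ in
theorem l76 (u β : F) : finrank ℂ ↥(T S ρ ψ a 0 c 0 ⊓ J S ρ ψ 6 β) ≤
    finrank ℂ ↥(T S ρ ψ a 0 c 0 ⊓ J S ρ ψ 6 (β + (u * a - u ^ 3 * c))) :=
  fr_le (ρ := ρ) (S.x 7 u) fun v hv => ⟨by simpa using T7 h3 u hv.1,
    mv76 u hv.1.2 hv.1.1.2 hv.1.1.1.2 hv.1.1.1.1 hv.2⟩

omit hψ in
theorem l67 (u β : F) : finrank ℂ ↥(T S ρ ψ a 0 0 0 ⊓ J S ρ ψ 7 β) ≤
    finrank ℂ ↥(T S ρ ψ a 0 0 0 ⊓ J S ρ ψ 7 (β - u * a)) :=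
  fr_le (ρ := ρ) (S.x 6 u) fun v hv => ⟨by simpa using T6 h3 u hv.1,
    mv67 u hv.1.2 hv.1.1.2 hv.1.1.1.2 hv.1.1.1.1 hv.2⟩

theorem g1 (hc : c ≠ 0) : N S ρ ψ 0 0 c 0 = Fintype.card F * finrank ℂ ↥(T S ρ ψ 0 0 c 0 ⊓ J S ρ ψ 6 0) := by
  have : ∀ β β', finrank ℂ ↥(T S ρ ψ 0 0 c 0 ⊓ J S ρ ψ 6 β) ≤ finrank ℂ ↥(T S ρ ψ 0 0 c 0 ⊓ J S ρ ψ 6 β') :=
    fun β β' => by
      obtain ⟨u, hu⟩ := cube h3 ((β - β') / c)
      have := l76 (S := S) (ρ := ρ) (ψ := ψ) (a := 0) (c := c) h3 u β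
      rwa [hu, div_mul_cancel₀ _ hc, show β + (u * 0 - (β - β')) = β' by ring] at this
  rw [← s6 h3 hψ, sc _ _ fun β => le_antisymm (this β 0) (this 0 β)]

theorem g2 (ha : a ≠ 0) : N S ρ ψ a 0 0 0 = Fintype.card F * finrank ℂ ↥(T S ρ ψ a 0 0 0 ⊓ J S ρ ψ 7 0) := by
  have : ∀ β β', finrank ℂ ↥(T S ρ ψ a 0 0 0 ⊓ J S ρ ψ 7 β) ≤ finrank ℂ ↥(T S ρ ψ a 0 0 0 ⊓ J S ρ ψ 7 β') :=
    fun β β' => by
      have := l67 (S := S) (ρ := ρ) (ψ := ψ) (a := a) h3 ((β - β') / a) β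
      rwa [div_mul_cancel₀ _ ha, sub_sub_cancel] at this
  rw [← s7 h3 hψ, sc _ _ fun β => le_antisymm (this β 0) (this 0 β)]

theorem f3 (hq : 9 ≤ Fintype.card F) (hc : c ≠ 0) (h : N S ρ ψ a 0 c 0 ≠ 0) : 3 ≤ N S ρ ψ a 0 c 0 := by
  classical
  rw [← s6 h3 hψ] at h ⊢
  obtain ⟨β, -, hβ⟩ := Finset.exists_ne_zero_of_sum_ne_zero h
  have k := Finset.card_le_mul_card_image (f := fun u : F => β + (u * a - u ^ 3 * c)) Finset.univ 3 fun y _ => by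
    let p : Polynomial F := Polynomial.C c * Polynomial.X ^ 3 - Polynomial.C a * Polynomial.X + Polynomial.C (y - β)
    have d : p.natDegree = 3 := by simp only [p]; compute_degree!
    have p0 : p ≠ 0 := fun e => by simp [e] at d
    refine (Polynomial.card_le_degree_of_subset_roots (p := p) fun u hu => ?_).trans d.le
    have := (Finset.mem_filter.1 hu).2
    rw [Polynomial.mem_roots p0]
    simp only [p, Polynomial.IsRoot, Polynomial.eval_add, Polynomial.eval_sub, Polynomial.eval_mul, Polynomial.eval_C,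
      Polynomial.eval_pow, Polynomial.eval_X]
    linear_combination -this
  rw [Finset.card_univ] at k
  calc 3 ≤ (Finset.univ.image fun u : F => β + (u * a - u ^ 3 * c)).card := by omega
    _ = ∑ y ∈ Finset.univ.image fun u : F => β + (u * a - u ^ 3 * c), 1 := by simp
    _ ≤ ∑ y ∈ Finset.univ.image fun u : F => β + (u * a - u ^ 3 * c),
        finrank ℂ ↥(T S ρ ψ a 0 c 0 ⊓ J S ρ ψ 6 y) := Finset.sum_le_sum fun y hy => by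
      obtain ⟨u, -, rfl⟩ := Finset.mem_image.1 hy
      exact (Nat.one_le_iff_ne_zero.2 hβ).trans (l76 h3 u β)
    _ ≤ _ := Finset.sum_le_sum_of_subset (Finset.subset_univ _)

theorem fbig (hq : 9 ≤ Fintype.card F) (ha : a ≠ 0) (hc : c ≠ 0) (h : N S ρ ψ a 0 c 0 ≠ 0) :
    3 * (Fintype.card F - 1) ≤ 2 * ∑ a, N S ρ ψ a 0 c 0 := by
  classical
  have k := Finset.card_le_mul_card_image (f := fun u : F => a / u ^ 2) (Finset.univ.erase 0) 2 fun y hy => by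
    obtain ⟨w, hw, rfl⟩ := Finset.mem_image.1 hy
    refine (Finset.card_le_card (t := {w, -w}) fun u hu => ?_).trans Finset.card_le_two
    obtain ⟨h1, h2⟩ := Finset.mem_filter.1 hu
    have h1 := Finset.ne_of_mem_erase h1
    have hw := Finset.ne_of_mem_erase hw
    rw [div_eq_div_iff (pow_ne_zero _ h1) (pow_ne_zero _ hw), mul_right_inj' ha, eq_comm, sq_eq_sq_iff_eq_or_eq_neg] at h2
    simpa using h2
  rw [Finset.card_erase_of_mem (Finset.mem_univ _), Finset.card_univ] at k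
  have : 3 * ((Finset.univ.erase 0).image fun u : F => a / u ^ 2).card ≤ ∑ a, N S ρ ψ a 0 c 0 :=
    calc _ = ∑ y ∈ (Finset.univ.erase 0).image fun u : F => a / u ^ 2, 3 := by simp [mul_comm]
      _ ≤ ∑ y ∈ (Finset.univ.erase 0).image fun u : F => a / u ^ 2, N S ρ ψ y 0 c 0 := Finset.sum_le_sum fun y hy => by
        obtain ⟨u, hu, rfl⟩ := Finset.mem_image.1 hy
        have hu := Finset.ne_of_mem_erase hu
        exact (f3 h3 hψ hq hc h).trans (fr_le (ρ := ρ) (S.h 8 (Units.mk0 u hu)) fun v hv =>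
          ⟨⟨⟨tr0 8 11 _ hv.1.1.1, by simpa [pr] using tr 8 10 (Units.mk0 u hu) hv.1.1.2⟩, tr0 8 9 _ hv.1.2⟩,
            by simpa [pr, zpow_ofNat] using tr 8 8 (Units.mk0 u hu) hv.2⟩)
      _ ≤ _ := Finset.sum_le_sum_of_subset (Finset.subset_univ _)
  omega

theorem g0 (hq : 9 ≤ Fintype.card F) (d1 : ∀ c, c ≠ 0 → finrank ℂ ↥(T S ρ ψ 0 0 c 0 ⊓ J S ρ ψ 6 0) = 1)
    (d2 : ∀ a, a ≠ 0 → finrank ℂ ↥(T S ρ ψ a 0 0 0 ⊓ J S ρ ψ 7 0) = 1) :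
    2 * (Fintype.card F - 1) ≤ N S ρ ψ 0 0 0 0 := by
  obtain ⟨e1, n1, k1⟩ := wy S ρ ψ 6 9 9
  obtain ⟨e2, n2, k2⟩ := wy S ρ ψ 6 10 11
  obtain ⟨e3, n3, k3⟩ := wy S ρ ψ 6 11 10
  obtain ⟨e4, n4, k4⟩ := wy S ρ ψ 6 7 8
  obtain ⟨e5, n5, k5⟩ := wy S ρ ψ 6 8 7
  obtain ⟨f1, m1, j1⟩ := wy S ρ ψ 7 11 11
  obtain ⟨f2, m2, j2⟩ := wy S ρ ψ 7 8 9
  obtain ⟨f3, m3, j3⟩ := wy S ρ ψ 7 9 8
  obtain ⟨f4, m4, j4⟩ := wy S ρ ψ 7 6 10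
  obtain ⟨f5, m5, j5⟩ := wy S ρ ψ 7 10 6
  have u7 : ∀ α, α ≠ 0 → finrank ℂ ↥(T S ρ ψ 0 0 0 0 ⊓ J S ρ ψ 7 α) ≤ 1 := fun α hα =>
    d2 _ (div_ne_zero hα n4) ▸ fr_le (ρ := ρ) (S.n 6) fun v hv =>
      ⟨⟨⟨⟨by simpa using k2 _ _ hv.1.1.1.2, by simpa using k3 _ _ hv.1.1.1.1⟩, by simpa using k1 _ _ hv.1.1.2⟩,
        k4 _ _ hv.2⟩, by simpa using k5 _ _ hv.1.2⟩
  have l7 : ∀ α, α ≠ 0 → 1 ≤ finrank ℂ ↥(T S ρ ψ 0 0 0 0 ⊓ J S ρ ψ 7 α) := fun α hα =>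
    d2 _ (mul_ne_zero hα n5) ▸ fr_le (ρ := ρ) (S.n 6) fun v hv =>
      ⟨⟨⟨⟨by simpa using k2 _ _ hv.1.1.1.2, by simpa using k3 _ _ hv.1.1.1.1⟩, by simpa using k1 _ _ hv.1.1.2⟩,
        by simpa using k4 _ _ hv.2⟩, by simpa [n5] using k5 _ _ hv.1.2⟩
  have l6 : ∀ β, β ≠ 0 → 1 ≤ finrank ℂ ↥(T S ρ ψ 0 0 0 0 ⊓ J S ρ ψ 6 β) := fun β hβ =>
    d1 _ (mul_ne_zero hβ m5) ▸ fr_le (ρ := ρ) (S.n 7) fun v hv =>
      ⟨⟨⟨⟨by simpa using j1 _ _ hv.1.1.1.1, by simpa using j4 _ _ hv.2⟩, by simpa using j2 _ _ hv.1.2⟩,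
        by simpa using j3 _ _ hv.1.1.2⟩, by simpa [m5] using j5 _ _ hv.1.1.1.2⟩
  have a6 : ∀ α, ∑ β, finrank ℂ ↥(T S ρ ψ 0 0 0 0 ⊓ J S ρ ψ 7 α ⊓ J S ρ ψ 6 β) =
      finrank ℂ ↥(T S ρ ψ 0 0 0 0 ⊓ J S ρ ψ 7 α) := fun α => sum_fr hψ fun u _ hv =>
    ⟨by simpa using T6 h3 u hv.1, by simpa using mv67 u hv.1.2 hv.1.1.2 hv.1.1.1.2 hv.1.1.1.1 hv.2⟩
  have a7 : ∀ β, ∑ α, finrank ℂ ↥(T S ρ ψ 0 0 0 0 ⊓ J S ρ ψ 7 α ⊓ J S ρ ψ 6 β) =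
      finrank ℂ ↥(T S ρ ψ 0 0 0 0 ⊓ J S ρ ψ 6 β) := fun β => by
    rw [← sum_fr (S := S) (ρ := ρ) (r := 7) (U := T S ρ ψ 0 0 0 0 ⊓ J S ρ ψ 6 β) hψ fun u _ hv =>
      ⟨by simpa using T7 h3 u hv.1, by simpa using mv76 u hv.1.2 hv.1.1.2 hv.1.1.1.2 hv.1.1.1.1 hv.2⟩]
    exact Finset.sum_congr rfl fun α _ => congrArg (fun p : Submodule ℂ M => finrank ℂ p) (inf_right_comm _ _ _)
  have z : ∀ α β, α ≠ 0 → β ≠ 0 → finrank ℂ ↥(T S ρ ψ 0 0 0 0 ⊓ J S ρ ψ 7 α ⊓ J S ρ ψ 6 β) = 0 := fun α β hα hβ => by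
    by_contra h
    have := sp' (fun β => finrank ℂ ↥(T S ρ ψ 0 0 0 0 ⊓ J S ρ ψ 7 α ⊓ J S ρ ψ 6 β)) 1 fun β' hβ' =>
      (Nat.one_le_iff_ne_zero.2 h).trans (fr_le (ρ := ρ) (S.h 11 (Units.mk0 (β / β') (div_ne_zero hβ hβ'))) fun v hv =>
        ⟨⟨⟨⟨⟨tr0 11 11 _ hv.1.1.1.1.1, tr0 11 10 _ hv.1.1.1.1.2⟩, tr0 11 9 _ hv.1.1.1.2⟩, tr0 11 8 _ hv.1.1.2⟩,
          by simpa [pr] using tr 11 7 (Units.mk0 (β / β') (div_ne_zero hβ hβ')) hv.1.2⟩,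
          by simpa [pr, hβ] using tr 11 6 (Units.mk0 (β / β') (div_ne_zero hβ hβ')) hv.2⟩)
    rw [a6] at this
    have := u7 α hα
    omega
  have b1 := sp' (fun β => finrank ℂ ↥(T S ρ ψ 0 0 0 0 ⊓ J S ρ ψ 7 0 ⊓ J S ρ ψ 6 β)) 1 fun β hβ => by
    have := l6 β hβ
    rwa [← a7, sp _ 0 fun α hα => z α β hα hβ, mul_zero, add_zero] at this
  have b2 := sp' (fun α => finrank ℂ ↥(T S ρ ψ 0 0 0 0 ⊓ J S ρ ψ 7 α)) 1 l7
  rw [a6] at b1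
  rw [s7 h3 hψ] at b2
  omega

omit h3 hψ

universe u v w

theorem p3 : P3.{u, v, w} := by
  intro F G M _ _ _ _ _ _ S ρ h3 hq hx _
  obtain ⟨ψ, hψ⟩ := exists_addChar_complex F
  obtain ⟨k, hk⟩ : ∃ k, Fintype.card F = k + 1 := ⟨Fintype.card F - 1, by omega⟩
  have hk' : Fintype.card F - 1 = k := by omega
  have m0 := m_ne h3 hψ hq hx
  have t := tot (S := S) (ρ := ρ) h3 hψ hk (Nat.add_sub_cancel k 1) rfl rfl rfl
  have r1 := fun c hc => R1 (S := S) (ρ := ρ) (c := c) h3 hψ hc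
  have r2 := fun a ha => R2 (S := S) (ρ := ρ) (a := a) h3 hψ ha
  have fb := fun a c ha hc => fbig (S := S) (ρ := ρ) (a := a) (c := c) h3 hψ hq ha hc
  generalize N S ρ ψ 0 1 0 1 = m at *
  generalize N S ρ ψ 0 0 0 1 = e1 at *
  generalize N S ρ ψ 0 1 0 0 = e2 at *
  have k8 : 8 ≤ k := by omega
  rw [hk, t]
  rcases (show m = 1 ∨ 2 ≤ m by omega) with rfl | hm
  swap
  · obtain ⟨m, rfl⟩ := Nat.exists_eq_add_of_le hm
    obtain ⟨k, rfl⟩ := Nat.exists_eq_add_of_le k8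
    ring_nf; omega
  have big : 4 ≤ e1 ∨ k + 2 ≤ e2 → (k + 1) ^ 4 + (k + 1) ^ 2 ≤ (∑ a, N S ρ ψ a 0 0 0 + k * ((k + 1) * e2)) +
      k * (e1 + k * 1 + k * ((k + 1) * 1)) + k * ((k + 1) * (e1 + k * 1 + k * ((k + 1) * 1))) + 2 := fun h => by
    obtain ⟨k, rfl⟩ := Nat.exists_eq_add_of_le k8
    rcases h with h | h <;> obtain ⟨e, rfl⟩ := Nat.exists_eq_add_of_le h <;> ring_nf <;> omega
  by_cases hf : ∀ a c, a ≠ 0 → c ≠ 0 → N S ρ ψ a 0 c 0 = 0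
  swap
  · push Not at hf
    obtain ⟨a, c, ha, hc, h⟩ := hf
    have := fb a c ha hc h
    rw [r1 c hc, hk'] at this
    exact big (Or.inl (by omega))
  have G1 : ∀ c, c ≠ 0 → (k + 1) * finrank ℂ ↥(T S ρ ψ 0 0 c 0 ⊓ J S ρ ψ 6 0) = e1 + k := fun c hc => by
    have := r1 c hc
    rwa [sp _ 0 fun a ha => hf a c ha hc, mul_zero, add_zero, g1 h3 hψ hc, hk', hk, mul_one] at this
  have G2 : ∀ a, a ≠ 0 → N S ρ ψ a 0 0 0 = e2 + k := fun a ha => by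
    have := r2 a ha
    rwa [sp _ 0 fun c hc => hf a c ha hc, mul_zero, add_zero, hk', mul_one] at this
  have G3 : ∀ a, a ≠ 0 → (k + 1) * finrank ℂ ↥(T S ρ ψ a 0 0 0 ⊓ J S ρ ψ 7 0) = e2 + k := fun a ha => by
    rw [← G2 a ha, g2 h3 hψ ha, hk]
  have ar : ∀ d e : ℕ, (k + 1) * d = e + k → e < k + 2 → d = 1 ∧ e = 1 := fun d e h1 h2 => by
    rcases (show d = 0 ∨ d = 1 ∨ 2 ≤ d by omega) with rfl | rfl | h
    · omega
    · omega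
    · have := Nat.mul_le_mul_left (k + 1) h
      omega
  by_cases hb : 4 ≤ e1 ∨ k + 2 ≤ e2
  · exact big hb
  push Not at hb
  have g := g0 h3 hψ hq (fun c hc => (ar _ _ (G1 c hc) (by omega)).1) fun a ha => (ar _ _ (G3 a ha) hb.2).1
  obtain rfl := (ar _ _ (G1 1 one_ne_zero) (by omega)).2
  obtain rfl := (ar _ _ (G3 1 one_ne_zero) hb.2).2
  rw [sp _ _ G2, hk'] 
  rw [hk'] at g
  obtain ⟨e, he⟩ := Nat.exists_eq_add_of_le g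
  rw [he]
  ring_nf; omega

end H10.GmP3
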