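import Cfsg.Agent.H11.Gm0

/-! `G₂(q)` in characteristic three: moves between weight spaces (`H10.GmP3`). -/
set_option autoImplicit false
set_option linter.unusedSectionVars false
namespace H10.GmP3
open H24 Module Matrix H11.Gm

variable {F G M : Type*} [Field F] [Group G] [AddCommGroup M] [Module ℂ M]
variable {S : Sy F G} {ρ : G →* End ℂ M} {ψ : AddChar F ℂ} {v : M} {a b c d m : F}

theorem x0 (r : ℕ) : S.x r 0 = 1 := by simpa using S.add r 0 0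

theorem cm3 (h3 : (3 : F) = 0) : ∀ p ∈ [(6, 8), (6, 9), (6, 11), (7, 10), (7, 11), (8, 10), (8, 11), (9, 10), (9, 11),
    (10, 11), (7, 9), (8, 9)], ∀ t u, Commute (S.x p.1 t) (S.x p.2 u) := fun p hp t u => by
  simp only [List.mem_cons, List.not_mem_nil, or_false] at hp
  rcases hp with rfl | rfl | rfl | rfl | rfl | rfl | rfl | rfl | rfl | rfl | rfl | rfl
  iterate 10 exact S.cm _ (by simp) t u
  · have := S.c79 t u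
    rw [h3, zero_mul, zero_mul, neg_zero, x0, mul_one] at this
    exact this.symm
  · have := S.c89 t u
    rw [h3, zero_mul, zero_mul, neg_zero, x0, mul_one] at this
    exact this.symm

theorem K (h3 : (3 : F) = 0) (r s : ℕ) (t : F) (hv : v ∈ J S ρ ψ r m)
    (h : (r, s) ∈ [(6, 8), (6, 9), (6, 11), (7, 10), (7, 11), (8, 10), (8, 11), (9, 10), (9, 11), (10, 11), (7, 9), (8, 9)] ∨
      (s, r) ∈ [(6, 8), (6, 9), (6, 11), (7, 10), (7, 11), (8, 10), (8, 11), (9, 10), (9, 11), (10, 11), (7, 9),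
        (8, 9)] := by decide) : ρ (S.x s t) v ∈ J S ρ ψ r m :=
  J_comm (fun u => h.elim (fun h => cm3 h3 _ h u t) fun h => (cm3 h3 _ h t u).symm) hv

theorem mv6 (t : F) (h1 : v ∈ J S ρ ψ 10 c) (h2 : v ∈ J S ρ ψ 11 d) : ρ (S.x 6 t) v ∈ J S ρ ψ 10 (c - t * d) :=
  mem_J.2 fun u => by
    rw [← app, S.c6A, app, app, mem_J.1 h2, map_smul, map_smul, mem_J.1 h1, map_smul, smul_smul,
      ← AddChar.map_add_eq_mul]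
    congr 2; ring

theorem mv7 (h3 : (3 : F) = 0) (t : F) (h1 : v ∈ J S ρ ψ 8 a) (h2 : v ∈ J S ρ ψ 9 b) :
    ρ (S.x 7 t) v ∈ J S ρ ψ 8 (a + 2 * t * b) :=
  mem_J.2 fun u => by
    rw [← app, S.c78, h3]
    simp only [zero_mul, neg_zero, x0, mul_one]
    rw [app, app, mem_J.1 h2, map_smul, map_smul, mem_J.1 h1, map_smul, smul_smul, ← AddChar.map_add_eq_mul]
    congr 2; ring

theorem e67 (t u : F) (h1 : v ∈ J S ρ ψ 8 a) (h2 : v ∈ J S ρ ψ 9 0) (h3 : v ∈ J S ρ ψ 10 c) (h4 : v ∈ J S ρ ψ 11 d) :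
    ρ (S.x 7 u) (ρ (S.x 6 t) v) =
      ψ (-(t * u) * a + t * u ^ 3 * c - 2 * t ^ 2 * u ^ 3 * d) • ρ (S.x 6 t) (ρ (S.x 7 u) v) := by
  rw [← app, S.c67, app, app, app, app, app, mem_J.1 h4]
  simp only [map_smul]
  rw [mem_J.1 h3]
  simp only [map_smul]
  rw [mem_J0.1 h2, mem_J.1 h1]
  simp only [map_smul, smul_smul, ← AddChar.map_add_eq_mul]
  congr 2; ring

theorem mv76 (u : F) (h1 : v ∈ J S ρ ψ 8 a) (h2 : v ∈ J S ρ ψ 9 0) (h3 : v ∈ J S ρ ψ 10 c) (h4 : v ∈ J S ρ ψ 11 0)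
    (h5 : v ∈ J S ρ ψ 6 b) : ρ (S.x 7 u) v ∈ J S ρ ψ 6 (b + (u * a - u ^ 3 * c)) :=
  mem_J.2 fun t => by
    have := e67 t u h1 h2 h3 h4
    rw [mem_J.1 h5, map_smul] at this
    have e := congrArg (fun w => ψ (t * (u * a - u ^ 3 * c)) • w) this
    simp only [smul_smul, ← AddChar.map_add_eq_mul] at e
    rw [show t * (u * a - u ^ 3 * c) + (-(t * u) * a + t * u ^ 3 * c - 2 * t ^ 2 * u ^ 3 * 0) = 0 by ring,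
      AddChar.map_zero_eq_one, one_smul] at e
    rw [← e]
    congr 2; ring

theorem mv67 (u : F) (h1 : v ∈ J S ρ ψ 8 a) (h2 : v ∈ J S ρ ψ 9 0) (h3 : v ∈ J S ρ ψ 10 0) (h4 : v ∈ J S ρ ψ 11 0)
    (h5 : v ∈ J S ρ ψ 7 b) : ρ (S.x 6 u) v ∈ J S ρ ψ 7 (b - u * a) :=
  mem_J.2 fun t => by
    rw [e67 u t h1 h2 h3 h4, mem_J.1 h5, map_smul, smul_smul, ← AddChar.map_add_eq_mul]
    congr 2; ring

theorem tr (e r : ℕ) (z : Fˣ) (hv : v ∈ J S ρ ψ r m) (he : e ∈ [6, 7, 8, 9, 10, 11] := by decide)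
    (hr : r ∈ [6, 7, 8, 9, 10, 11] := by decide) : ρ (S.h e z) v ∈ J S ρ ψ r (m / (z ^ pr e r : Fˣ)) :=
  J_conj (Units.ne_zero _) (S.tor e he r hr z) hv

theorem tr0 (e r : ℕ) (z : Fˣ) (hv : v ∈ J S ρ ψ r 0) (he : e ∈ [6, 7, 8, 9, 10, 11] := by decide)
    (hr : r ∈ [6, 7, 8, 9, 10, 11] := by decide) : ρ (S.h e z) v ∈ J S ρ ψ r 0 := by
  simpa using tr e r z hv he hr

theorem wy (S : Sy F G) (ρ : G →* End ℂ M) (ψ : AddChar F ℂ) (e r s : ℕ)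
    (h : (e, r, s) ∈ [(6, 7, 8), (6, 8, 7), (6, 9, 9), (6, 10, 11), (6, 11, 10), (7, 6, 10), (7, 10, 6), (7, 8, 9),
      (7, 9, 8), (7, 11, 11)] := by decide) :
    ∃ ε : F, ε ≠ 0 ∧ ∀ m v, v ∈ J S ρ ψ r m → ρ (S.n e) v ∈ J S ρ ψ s (m / ε) :=
  let ⟨ε, h1, h2⟩ := S.wy _ h
  ⟨ε, h1, fun _ _ hv => J_conj h1 h2 hv⟩

/-- joint weight space of `X₈ X₉ X₁₀ X₁₁` -/
noncomputable abbrev T (S : Sy F G) (ρ : G →* End ℂ M) (ψ : AddChar F ℂ) (a b c d : F) : Submodule ℂ M :=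
  J S ρ ψ 11 d ⊓ J S ρ ψ 10 c ⊓ J S ρ ψ 9 b ⊓ J S ρ ψ 8 a

/-- its dimension -/
noncomputable def N (S : Sy F G) (ρ : G →* End ℂ M) (ψ : AddChar F ℂ) (a b c d : F) : ℕ := finrank ℂ (T S ρ ψ a b c d)

variable [FiniteDimensional ℂ M] [Fintype F]

theorem sp (f : F → ℕ) (y : ℕ) (h : ∀ x, x ≠ 0 → f x = y) : ∑ x, f x = f 0 + (Fintype.card F - 1) * y := by
  classical
  rw [← Finset.add_sum_erase _ _ (Finset.mem_univ 0), Finset.sum_congr rfl fun x hx => h x (Finset.ne_of_mem_erase hx),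
    Finset.sum_const, Finset.card_erase_of_mem (Finset.mem_univ _), Finset.card_univ, smul_eq_mul]

theorem sp' (f : F → ℕ) (y : ℕ) (h : ∀ x, x ≠ 0 → y ≤ f x) : f 0 + (Fintype.card F - 1) * y ≤ ∑ x, f x := by
  classical
  have := sp (fun x : F => if x = 0 then f 0 else y) y (fun x hx => if_neg hx)
  rw [if_pos rfl] at this
  rw [← this]
  exact Finset.sum_le_sum fun x _ => by split_ifs with e; exacts [e ▸ le_rfl, h x e]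

theorem sc (f : F → ℕ) (y : ℕ) (h : ∀ x, f x = y) : ∑ x, f x = Fintype.card F * y := by simp [h]

theorem le0 (hψ : ψ ≠ 1) {U : Submodule ℂ M} {r : ℕ} (hU : ∀ u, ∀ v ∈ U, ρ (S.x r u) v ∈ U)
    (h : ∀ m, m ≠ 0 → finrank ℂ ↥(U ⊓ J S ρ ψ r m) = 0) : U ≤ J S ρ ψ r 0 := by
  have := sum_fr hψ hU
  rw [sp _ 0 h, mul_zero, add_zero] at this
  exact (Submodule.eq_of_le_of_finrank_eq inf_le_left this).ge.trans inf_le_right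

section
variable (h3 : (3 : F) = 0)
include h3

theorem T6 (t : F) (hv : v ∈ T S ρ ψ a b c d) : ρ (S.x 6 t) v ∈ T S ρ ψ a b (c - t * d) d :=
  ⟨⟨⟨K h3 11 6 t hv.1.1.1, mv6 t hv.1.1.2 hv.1.1.1⟩, K h3 9 6 t hv.1.2⟩, K h3 8 6 t hv.2⟩

theorem T7 (t : F) (hv : v ∈ T S ρ ψ a b c d) : ρ (S.x 7 t) v ∈ T S ρ ψ (a + 2 * t * b) b c d :=
  ⟨⟨⟨K h3 11 7 t hv.1.1.1, K h3 10 7 t hv.1.1.2⟩, K h3 9 7 t hv.1.2⟩, mv7 h3 t hv.2 hv.1.2⟩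

theorem X6 (hd : d ≠ 0) (c c' : F) : N S ρ ψ a b c d = N S ρ ψ a b c' d := by
  have : ∀ c c', N S ρ ψ a b c d ≤ N S ρ ψ a b c' d := fun c c' => fr_le (ρ := ρ) (S.x 6 ((c - c') / d)) fun v hv => by
    have := T6 h3 ((c - c') / d) hv
    rwa [div_mul_cancel₀ _ hd, sub_sub_cancel] at this
  exact le_antisymm (this _ _) (this _ _)

theorem X7 (hb : b ≠ 0) (a a' : F) : N S ρ ψ a b c d = N S ρ ψ a' b c d := by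
  have : ∀ a a', N S ρ ψ a b c d ≤ N S ρ ψ a' b c d := fun a a' => fr_le (ρ := ρ) (S.x 7 ((a - a') / b)) fun v hv => by
    have := T7 h3 ((a - a') / b) hv
    rwa [mul_assoc, div_mul_cancel₀ _ hb, show a + 2 * (a - a') = a' + 3 * (a - a') by ring, h3, zero_mul,
      add_zero] at this
  exact le_antisymm (this _ _) (this _ _)

omit h3 in
theorem H6 (hd : d ≠ 0) : N S ρ ψ 0 b 0 d = N S ρ ψ 0 b 0 1 := by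
  have : ∀ d d' : F, d ≠ 0 → d' ≠ 0 → N S ρ ψ 0 b 0 d ≤ N S ρ ψ 0 b 0 d' := fun d d' h h' =>
    fr_le (ρ := ρ) (S.h 6 (Units.mk0 (d / d') (div_ne_zero h h'))) fun v hv =>
      ⟨⟨⟨by simpa [pr, h] using tr 6 11 (Units.mk0 (d / d') (div_ne_zero h h')) hv.1.1.1, tr0 6 10 _ hv.1.1.2⟩,
        by simpa [pr] using tr 6 9 (Units.mk0 (d / d') (div_ne_zero h h')) hv.1.2⟩, tr0 6 8 _ hv.2⟩
  exact le_antisymm (this _ _ hd one_ne_zero) (this _ _ one_ne_zero hd)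

omit h3 in
theorem H7 (hb : b ≠ 0) : N S ρ ψ 0 b 0 d = N S ρ ψ 0 1 0 d := by
  have : ∀ b b' : F, b ≠ 0 → b' ≠ 0 → N S ρ ψ 0 b 0 d ≤ N S ρ ψ 0 b' 0 d := fun b b' h h' =>
    fr_le (ρ := ρ) (S.h 7 (Units.mk0 (b / b') (div_ne_zero h h'))) fun v hv =>
      ⟨⟨⟨by simpa [pr] using tr 7 11 (Units.mk0 (b / b') (div_ne_zero h h')) hv.1.1.1, tr0 7 10 _ hv.1.1.2⟩,
        by simpa [pr, h] using tr 7 9 (Units.mk0 (b / b') (div_ne_zero h h')) hv.1.2⟩, tr0 7 8 _ hv.2⟩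
  exact le_antisymm (this _ _ hb one_ne_zero) (this _ _ one_ne_zero hb)

theorem nA (hb : b ≠ 0) (hd : d ≠ 0) : N S ρ ψ a b c d = N S ρ ψ 0 1 0 1 := by
  rw [X6 h3 hd c 0, X7 h3 hb a 0, H6 hd, H7 hb]

theorem nE (hd : d ≠ 0) : N S ρ ψ 0 0 c d = N S ρ ψ 0 0 0 1 := by rw [X6 h3 hd c 0, H6 hd]

theorem nD (hb : b ≠ 0) : N S ρ ψ a b 0 0 = N S ρ ψ 0 1 0 0 := by rw [X7 h3 hb a 0, H7 hb]

variable (hψ : ψ ≠ 1)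
include hψ

theorem s8 : ∑ a, N S ρ ψ a b c d = finrank ℂ ↥(J S ρ ψ 11 d ⊓ J S ρ ψ 10 c ⊓ J S ρ ψ 9 b) :=
  sum_fr hψ fun u _ hv => ⟨⟨K h3 11 8 u hv.1.1, K h3 10 8 u hv.1.2⟩, K h3 9 8 u hv.2⟩

theorem s10 : ∑ c, N S ρ ψ a b c d = finrank ℂ ↥(J S ρ ψ 11 d ⊓ J S ρ ψ 9 b ⊓ J S ρ ψ 8 a) := by
  rw [← sum_fr (S := S) (ρ := ρ) (r := 10) (U := J S ρ ψ 11 d ⊓ J S ρ ψ 9 b ⊓ J S ρ ψ 8 a) hψ
    fun u _ hv => ⟨⟨K h3 11 10 u hv.1.1, K h3 9 10 u hv.1.2⟩, K h3 8 10 u hv.2⟩]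
  refine Finset.sum_congr rfl fun c _ => congrArg (fun p : Submodule ℂ M => finrank ℂ p) ?_
  unfold T
  ac_rfl

theorem s9 : ∑ b, ∑ a, N S ρ ψ a b c d = finrank ℂ ↥(J S ρ ψ 11 d ⊓ J S ρ ψ 10 c) := by
  simp only [s8 h3 hψ]
  exact sum_fr hψ fun u _ hv => ⟨K h3 11 9 u hv.1, K h3 10 9 u hv.2⟩

theorem s11 : ∑ c, ∑ b, ∑ a, N S ρ ψ a b c d = finrank ℂ ↥(⊤ ⊓ J S ρ ψ 11 d) := by
  rw [top_inf_eq]
  simp only [s9 h3 hψ]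
  exact sum_fr hψ fun u _ hv => K h3 11 10 u hv

theorem sAll : ∑ d, ∑ c, ∑ b, ∑ a, N S ρ ψ a b c d = finrank ℂ M := by
  simp only [s11 h3 hψ]
  rw [sum_fr hψ fun _ _ _ => Submodule.mem_top, finrank_top]

/-- `n₆` -/
theorem w6 (hc : c ≠ 0) : ∃ b' d' : F, (b' = 0 ↔ b = 0) ∧ d' ≠ 0 ∧ ∑ a, N S ρ ψ a b c 0 ≤ ∑ a, N S ρ ψ a b' 0 d' := by
  obtain ⟨e1, n1, k1⟩ := wy S ρ ψ 6 9 9
  obtain ⟨e2, n2, k2⟩ := wy S ρ ψ 6 10 11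
  obtain ⟨e3, n3, k3⟩ := wy S ρ ψ 6 11 10
  refine ⟨b / e1, c / e2, by simp [n1], div_ne_zero hc n2, ?_⟩
  rw [s8 h3 hψ, s8 h3 hψ]
  exact fr_le (ρ := ρ) (S.n 6) fun v hv => ⟨⟨k2 _ _ hv.1.2, by simpa using k3 _ _ hv.1.1⟩, k1 _ _ hv.2⟩

theorem w6' (hc : c ≠ 0) : ∃ b' d' : F, (b' = 0 ↔ b = 0) ∧ d' ≠ 0 ∧ ∑ a, N S ρ ψ a b' 0 d' ≤ ∑ a, N S ρ ψ a b c 0 := by
  obtain ⟨e1, n1, k1⟩ := wy S ρ ψ 6 9 9
  obtain ⟨e2, n2, k2⟩ := wy S ρ ψ 6 10 11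
  obtain ⟨e3, n3, k3⟩ := wy S ρ ψ 6 11 10
  refine ⟨b * e1, c * e3, by simp [n1], mul_ne_zero hc n3, ?_⟩
  rw [s8 h3 hψ, s8 h3 hψ]
  exact fr_le (ρ := ρ) (S.n 6) fun v hv => ⟨⟨by simpa using k2 _ _ hv.1.2, by simpa [n3] using k3 _ _ hv.1.1⟩,
    by simpa [n1] using k1 _ _ hv.2⟩

/-- `n₇` -/
theorem w7 (ha : a ≠ 0) : ∃ b' d' : F, (d' = 0 ↔ d = 0) ∧ b' ≠ 0 ∧ ∑ c, N S ρ ψ a 0 c d ≤ ∑ c, N S ρ ψ 0 b' c d' := by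
  obtain ⟨e1, n1, k1⟩ := wy S ρ ψ 7 11 11
  obtain ⟨e2, n2, k2⟩ := wy S ρ ψ 7 8 9
  obtain ⟨e3, n3, k3⟩ := wy S ρ ψ 7 9 8
  refine ⟨a / e2, d / e1, by simp [n1], div_ne_zero ha n2, ?_⟩
  rw [s10 h3 hψ, s10 h3 hψ]
  exact fr_le (ρ := ρ) (S.n 7) fun v hv => ⟨⟨k1 _ _ hv.1.1, k2 _ _ hv.2⟩, by simpa using k3 _ _ hv.1.2⟩

theorem w7' (ha : a ≠ 0) : ∃ b' d' : F, (d' = 0 ↔ d = 0) ∧ b' ≠ 0 ∧ ∑ c, N S ρ ψ 0 b' c d' ≤ ∑ c, N S ρ ψ a 0 c d := by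
  obtain ⟨e1, n1, k1⟩ := wy S ρ ψ 7 11 11
  obtain ⟨e2, n2, k2⟩ := wy S ρ ψ 7 8 9
  obtain ⟨e3, n3, k3⟩ := wy S ρ ψ 7 9 8
  refine ⟨a * e3, d * e1, by simp [n1], mul_ne_zero ha n3, ?_⟩
  rw [s10 h3 hψ, s10 h3 hψ]
  exact fr_le (ρ := ρ) (S.n 7) fun v hv => ⟨⟨by simpa [n1] using k1 _ _ hv.1.1, by simpa using k2 _ _ hv.2⟩,
    by simpa [n3] using k3 _ _ hv.1.2⟩

theorem nB (hb : b ≠ 0) (hc : c ≠ 0) : N S ρ ψ a b c 0 = N S ρ ψ 0 1 0 1 := by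
  obtain ⟨b1, d1, h1, h2, l1⟩ := w6 (S := S) (ρ := ρ) (b := b) h3 hψ hc
  obtain ⟨b2, d2, h4, h5, l2⟩ := w6' (S := S) (ρ := ρ) (b := b) h3 hψ hc
  rw [sc _ _ fun x => X7 h3 hb x a, sc _ _ fun x => nA h3 (h1.not.2 hb) h2] at l1
  rw [sc _ _ fun x => X7 h3 hb x a, sc _ _ fun x => nA h3 (h4.not.2 hb) h5] at l2
  exact Nat.eq_of_mul_eq_mul_left Fintype.card_pos (le_antisymm l1 l2)

theorem nC (ha : a ≠ 0) (hd : d ≠ 0) : N S ρ ψ a 0 c d = N S ρ ψ 0 1 0 1 := by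
  obtain ⟨b1, d1, h1, h2, l1⟩ := w7 (S := S) (ρ := ρ) (d := d) h3 hψ ha
  obtain ⟨b2, d2, h4, h5, l2⟩ := w7' (S := S) (ρ := ρ) (d := d) h3 hψ ha
  rw [sc _ _ fun x => X6 h3 hd x c, sc _ _ fun x => nA h3 h2 (h1.not.2 hd)] at l1
  rw [sc _ _ fun x => X6 h3 hd x c, sc _ _ fun x => nA h3 h5 (h4.not.2 hd)] at l2
  exact Nat.eq_of_mul_eq_mul_left Fintype.card_pos (le_antisymm l1 l2)

theorem R1 (hc : c ≠ 0) : ∑ a, N S ρ ψ a 0 c 0 = N S ρ ψ 0 0 0 1 + (Fintype.card F - 1) * N S ρ ψ 0 1 0 1 := by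
  obtain ⟨b1, d1, h1, h2, l1⟩ := w6 (S := S) (ρ := ρ) (b := 0) h3 hψ hc
  obtain ⟨b2, d2, h4, h5, l2⟩ := w6' (S := S) (ρ := ρ) (b := 0) h3 hψ hc
  rw [h1.2 rfl, sp (fun a => N S ρ ψ a 0 0 d1) _ fun x hx => nC h3 hψ hx h2, nE h3 h2] at l1
  rw [h4.2 rfl, sp (fun a => N S ρ ψ a 0 0 d2) _ fun x hx => nC h3 hψ hx h5, nE h3 h5] at l2
  exact le_antisymm l1 l2

theorem R2 (ha : a ≠ 0) : ∑ c, N S ρ ψ a 0 c 0 = N S ρ ψ 0 1 0 0 + (Fintype.card F - 1) * N S ρ ψ 0 1 0 1 := by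
  obtain ⟨b1, d1, h1, h2, l1⟩ := w7 (S := S) (ρ := ρ) (d := 0) h3 hψ ha
  obtain ⟨b2, d2, h4, h5, l2⟩ := w7' (S := S) (ρ := ρ) (d := 0) h3 hψ ha
  rw [h1.2 rfl, sp (fun c => N S ρ ψ 0 b1 c 0) _ fun x hx => nB h3 hψ h2 hx, nD h3 h2] at l1
  rw [h4.2 rfl, sp (fun c => N S ρ ψ 0 b2 c 0) _ fun x hx => nB h3 hψ h5 hx, nD h3 h5] at l2
  exact le_antisymm l1 l2

theorem tot {q k m e1 e2 : ℕ} (hq : Fintype.card F = q) (hk : q - 1 = k) (hm : N S ρ ψ 0 1 0 1 = m)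
    (h1 : N S ρ ψ 0 0 0 1 = e1) (h2 : N S ρ ψ 0 1 0 0 = e2) :
    finrank ℂ M = (∑ a, N S ρ ψ a 0 0 0 + k * (q * e2)) + k * (e1 + k * m + k * (q * m)) +
      k * (q * (e1 + k * m + k * (q * m))) := by
  rw [← sAll (S := S) (ρ := ρ) h3 hψ, sp _ (q * (e1 + k * m + k * (q * m))) fun d hd => ?_, hq, hk,
    sp _ (e1 + k * m + k * (q * m)) fun c hc => ?_, hq, hk, sp _ (q * e2) fun b hb => ?_, hq, hk]
  · rw [sc _ _ fun a => nD h3 hb, hq, h2]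
  · rw [sp _ (q * m) fun b hb => ?_, R1 h3 hψ hc, hq, hk, hm, h1]
    rw [sc _ _ fun a => nB h3 hψ hb hc, hq, hm]
  · rw [sc _ (e1 + k * m + k * (q * m)) fun c => ?_, hq]
    rw [sp _ (q * m) fun b hb => ?_, sp _ _ fun a ha => nC h3 hψ ha hd, nE h3 hd, hq, hk, hm, h1]
    rw [sc _ _ fun a => nA h3 hb hd, hq, hm]

end

end H10.GmP3
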