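import Cfsg.Agent.H26.Qw0

/-! `H10.QwP7.p7 : H326.Qw.P7`: the centralizer of `V₁` does not have order `672`. -/

set_option autoImplicit false

namespace H10.QwP7
open Subgroup H326.Qw
universe u

theorem card_P : Nat.card P = 32 := by rw [Nat.card_eq_fintype_card]; decide +kernel

theorem d1 : ∀ t ∈ P, ∃ v ∈ V1, t * u1 * t⁻¹ = u1 * v := by decide +kernel
theorem d2 : ∀ t ∈ P, t * u2 = u2 * t → u1 * t * (u1 * t) = 1 → ∃ α ∈ [u1, u1 * z1], u1 * t = α ∨ u1 * t = α * z2 ∨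
    u1 * t = α * u2 ∨ u1 * t = α * u2 * z2 := by decide +kernel
theorem d3 : ∀ t ∈ U2, t = 1 ∨ t = z2 ∨ t = u2 ∨ z2 * t = u2 := by decide +kernel
theorem d4 : ∀ t ∈ V1, t = 1 ∨ t = z1 ∨ t = v1 ∨ t = v1 * z1 := by decide +kernel
theorem d5 : ∀ t ∈ Pr 4 0, s⁻¹ * t * s ∈ Pr 0 4 := by decide +kernel
theorem d6 : ∀ v ∈ V1, v ∈ Pr 4 0 ∧ z2 * v = v * z2 ∧ v2 * v = v * v2 ∧ u1 * v * u1⁻¹ ∈ V1 := by decide +kernel
theorem d7 : ∀ α ∈ [u1, u1 * z1], α ∈ Pr 4 0 ∧ (∃ τ, τ * (α * z2) * τ⁻¹ = u1 * z2) ∧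
    v2 * (α * u2) * v2⁻¹ = α * u2 * z2 ∧ v2 * (α * u2 * z2) * v2⁻¹ = α * u2 ∧ ∀ p ∈ [α * u2, α * u2 * z2],
      p * z2 = z2 * p ∧ p * v2 ≠ v2 * p ∧ p * (v2 * z2) ≠ v2 * z2 * p ∧ u1 * p * u1⁻¹ = p := by decide +kernel

theorem fin8 : ∀ i j : Fin 8, (i ≠ 7 ↔ j ≠ 7) → (i ≠ 7 → j ≠ 7 → (i < 3 ↔ j < 3)) →
    (i ≠ 7 → j ≠ 7 → ((i = 0 ∨ i = 3 ∨ i = 4) ↔ (j = 0 ∨ j = 3 ∨ j = 4))) →
    (i ≠ 7 → j ≠ 7 → i ≠ 0 → j ≠ 0 → (i.1 % 2 = 1 ↔ j.1 % 2 = 1)) → i = j := by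
  intro i j
  omega

theorem p7 : P7.{u} := fun G _ _ ψ x c f p e cy h672 => by
  classical
  have inj := c.inj
  have mC : ∀ g, g ∈ CV ψ ↔ Commute (ψ z1) g ∧ Commute (ψ v1) g := fun g => by
    simp [CV, mem_centralizer_iff, commute_iff_eq]
  have cV : ∀ g ∈ CV ψ, ∀ v ∈ V1, Commute (ψ v) g := fun g hg v hv => by
    obtain ⟨h1, h2⟩ := (mC g).1 hg
    rcases d4 v hv with rfl | rfl | rfl | rfl
    · simp
    · exact h1
    · exact h2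
    · rw [map_mul]; exact h2.mul_left h1
  have cm : ∀ a b, a * b = b * a → Commute (ψ a) (ψ b) := fun a b h => by
    rw [commute_iff_eq, ← map_mul, h, map_mul]
  have cm' : ∀ a b, Commute (ψ a) (ψ b) → a * b = b * a := fun a b h => inj (by rw [map_mul, map_mul, h.eq])
  have cj : ∀ a b, ψ a * ψ b * (ψ a)⁻¹ = ψ (a * b * a⁻¹) := fun a b => by simp
  have PC : ∀ t ∈ P, ψ t ∈ CV ψ := fun t ht => (mC _).2 ⟨cm _ _ (by revert t; decide +kernel),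
    cm _ _ (by revert t; decide +kernel)⟩
  obtain ⟨X, hX⟩ : ∃ X, X = ψ s * x * (ψ s)⁻¹ := ⟨_, rfl⟩
  have cs : ∀ a b, x * ψ a * x⁻¹ = ψ b → X * ψ (s * a * s⁻¹) * X⁻¹ = ψ (s * b * s⁻¹) := fun a b h => by
    rw [← cj, ← cj, ← h, hX]; group
  have Xz : X * ψ z2 * X⁻¹ = ψ v2 := cs _ _ c.xz
  have Xv : X * ψ v2 * X⁻¹ = ψ (v2 * z2) := cs _ _ c.xv
  have Xw : X * ψ (v2 * z2) * X⁻¹ = ψ z2 := by
    rw [map_mul, ← conj_mul, Xz, Xv, ← map_mul]; rfl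
  have Xu : ψ u2 * X * (ψ u2)⁻¹ = X⁻¹ := by
    rw [show u2 = s * u1 * s⁻¹ from rfl, ← cj, hX]
    calc _ = ψ s * (ψ u1 * x * (ψ u1)⁻¹) * (ψ s)⁻¹ := by group
      _ = _ := by rw [c.xu]; group
  have X3 : X ^ 3 = 1 := by rw [hX, conj_pow, c.x3]; group
  have XD : ∀ t ∈ Pr 4 0, Commute X (ψ t) := fun t ht => by
    have := (c.xD _ (d5 t ht)).eq
    rw [map_mul, map_mul, map_inv] at this
    rw [hX, commute_iff_eq]
    calc _ = ψ s * (x * ((ψ s)⁻¹ * ψ t * ψ s)) * (ψ s)⁻¹ := by group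
      _ = _ := by rw [this]; group
  have XC : X ∈ CV ψ := (mC _).2 ⟨(XD _ (by decide)).symm, (XD _ (by decide)).symm⟩
  have nXz : ¬ Commute X (ψ z2) := fun h => absurd (inj (Xz.symm.trans (by rw [h.eq, mul_inv_cancel_right]))) (by decide)
  -- step 1
  obtain ⟨g, gC, gu, gU⟩ := p.g
  have nab : ∀ t, Cj ψ t z1 → Cj ψ t z → False := fun t h1 h2 => f.ab (h1.symm.trans h2)
  obtain ⟨α, hα, c0, c0C, h0⟩ : ∃ α ∈ [u1, u1 * z1], ∃ c0 ∈ CV ψ, c0 * ψ u1 * c0⁻¹ = ψ (α * u2) := by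
    have k1 : ∀ t t', u1 * t = t * u1 → u1 * t' = t' * u1 → g * ψ t * g⁻¹ = ψ t' →
        Commute ((ψ u1)⁻¹ * (g * ψ u1 * g⁻¹)) (ψ t') := fun t t' a1 a2 h =>
      (cm _ _ a2).inv_left.mul_left (h ▸ (cm _ _ a1).conj g)
    have yC : (ψ u1)⁻¹ * (g * ψ u1 * g⁻¹) ∈ CV ψ := by
      rw [show (ψ u1)⁻¹ * (g * ψ u1 * g⁻¹) = (ψ u1)⁻¹ * g * (ψ u1)⁻¹⁻¹ * g⁻¹ by group]
      refine mul_mem ((mC _).2 ⟨?_, ?_⟩) (inv_mem gC)
      · have := (cV g gC (u1 * z1 * u1⁻¹) (by decide)).conj (ψ u1)⁻¹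
        rw [← cj] at this
        simpa [mul_assoc] using this
      · have := (cV g gC (u1 * v1 * u1⁻¹) (by decide)).conj (ψ u1)⁻¹
        rw [← cj] at this
        simpa [mul_assoc] using this
    obtain ⟨t, tP, ht⟩ := cy _ yC (k1 u2 z2 (by decide) (by decide) gu)
    have yu : Commute ((ψ u1)⁻¹ * (g * ψ u1 * g⁻¹)) (ψ u2) := by
      obtain ⟨t', h1, h2⟩ := gU z2 (by decide)
      rcases d3 t' h1 with rfl | rfl | rfl | h3
      · exact absurd (inj (show ψ z2 = ψ 1 by simpa using h2)) (by decide)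
      · exact absurd (inj (by simpa using h2.trans gu.symm : ψ z2 = ψ u2)) (by decide)
      · exact k1 z2 u2 (by decide) (by decide) h2
      · exact k1 (u2 * z2) u2 (by decide) (by decide) (by rw [map_mul, ← conj_mul, gu, h2, ← map_mul, h3])
    have g1 : g * ψ u1 * g⁻¹ = ψ (u1 * t) := by rw [map_mul, ← ht]; group
    have ca : Cj ψ (u1 * t) z1 := (isConj_iff.2 ⟨g, g1⟩ : IsConj (ψ u1) _).symm.trans p.ca
    have db : ∀ α ∈ [u1, u1 * z1], Cj ψ (α * z2) z := fun α hα => by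
      obtain ⟨-, ⟨τ, hτ⟩, -⟩ := d7 α hα
      exact (isConj_iff.2 ⟨ψ τ, by rw [cj, hτ]⟩ : IsConj _ (ψ (u1 * z2))).trans p.db
    obtain ⟨α, hα, h⟩ := d2 t tP (cm' _ _ (ht ▸ yu)) (inj (by
      rw [map_mul, ← g1, conj_mul, ← map_mul, show u1 * u1 = 1 from rfl]; simp))
    refine ⟨α, hα, ?_⟩
    rcases h with h | h | h | h
    · exact (nab _ e ((isConj_iff.2 ⟨g, by rw [map_mul, ← conj_mul, g1, gu, h, map_mul]⟩ :
        IsConj _ (ψ (α * z2))).trans (db α hα))).elim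
    · exact (nab _ ca (h ▸ db α hα)).elim
    · exact ⟨g, gC, h ▸ g1⟩
    · refine ⟨ψ v2 * g, mul_mem (PC _ (by decide)) gC, ?_⟩
      rw [← (d7 α hα).2.2.2.1, ← cj, ← h, ← g1]; group
  obtain ⟨α4, -, a1, -, a2⟩ := d7 α hα
  have c1C : ψ v2 * c0 ∈ CV ψ := mul_mem (PC _ (by decide)) c0C
  have h1 : ψ v2 * c0 * ψ u1 * (ψ v2 * c0)⁻¹ = ψ (α * u2 * z2) := by rw [← a1, ← cj, ← h0]; group
  generalize ψ v2 * c0 = c1 at c1C h1
  obtain ⟨b1, b2, b3, b4⟩ := a2 (α * u2) (by simp)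
  obtain ⟨b5, b6, b7, b8⟩ := a2 (α * u2 * z2) (by simp)
  have i0 : ψ (α * u2) * X * (ψ (α * u2))⁻¹ = X⁻¹ := by
    rw [map_mul]
    calc _ = ψ α * (ψ u2 * X * (ψ u2)⁻¹) * (ψ α)⁻¹ := by group
      _ = _ := by rw [Xu, ← (XD α α4).inv_left.eq, mul_inv_cancel_right]
  have i1 : ψ (α * u2 * z2) * X * (ψ (α * u2 * z2))⁻¹ ≠ X⁻¹ := fun h => nXz (by
    rw [← i0, map_mul _ _ z2] at h
    have : ψ z2 * X * (ψ z2)⁻¹ = X := by
      calc _ = (ψ (α * u2))⁻¹ * (ψ (α * u2) * ψ z2 * X * (ψ (α * u2) * ψ z2)⁻¹) * ψ (α * u2) := by group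
        _ = _ := by rw [h]; group
    exact (mul_inv_eq_iff_eq_mul.1 this).symm)
  replace b1 := cm _ _ b1
  generalize α * u2 * z2 = p1 at *
  generalize α * u2 = p0 at *
  -- the stabilizer
  let St : Subgroup G :=
    { carrier := {k | k ∈ CV ψ ∧ ∃ v ∈ V1, k * ψ u1 * k⁻¹ = ψ u1 * ψ v}
      one_mem' := ⟨one_mem _, 1, one_mem _, by simp⟩
      mul_mem' := by
        rintro a b ⟨ha, v, hv, e1⟩ ⟨hb, w, hw, e2⟩
        refine ⟨mul_mem ha hb, v * w, mul_mem hv hw, ?_⟩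
        calc _ = a * (b * ψ u1 * b⁻¹) * a⁻¹ := by group
          _ = a * ψ u1 * a⁻¹ * (a * ψ w * a⁻¹) := by rw [e2]; group
          _ = _ := by rw [e1, ← (cV a ha w hw).eq, map_mul]; group
      inv_mem' := by
        rintro a ⟨ha, v, hv, e1⟩
        refine ⟨inv_mem ha, v⁻¹, inv_mem hv, ?_⟩
        calc _ = a⁻¹ * (ψ u1 * ψ v) * ((ψ v)⁻¹ * a) := by group
          _ = _ := by rw [← e1, (cV a ha v hv).inv_left.eq, map_inv]; group }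
  have SC : St ≤ CV ψ := fun k hk => hk.1
  have n32 : 32 ∣ Nat.card St := by
    rw [← card_P, ← card_map_of_injective inj]
    refine card_dvd_of_le ?_
    rintro _ ⟨t, ht, rfl⟩
    obtain ⟨v, hv, h⟩ := d1 t ht
    exact ⟨PC t ht, v, hv, by rw [cj, h, map_mul]⟩
  have n3 : 3 ∣ Nat.card St := by
    haveI := Fact.mk Nat.prime_three
    rw [← orderOf_eq_prime X3 fun h => nXz (h ▸ Commute.one_left _)]
    exact St.orderOf_dvd_natCard ⟨XC, 1, one_mem _, by rw [(XD _ (by decide)).eq]; simp⟩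
  have ix : Nat.card (CV ψ ⧸ St.subgroupOf (CV ψ)) < 8 := by
    have := card_eq_card_quotient_mul_card_subgroup (St.subgroupOf (CV ψ))
    rw [h672, Nat.card_congr (subgroupOfEquivOfLe SC).toEquiv] at this
    obtain ⟨m, hm⟩ := Nat.Coprime.mul_dvd_of_dvd_of_dvd (by decide) n32 n3
    have m0 : 0 < m := Nat.pos_of_ne_zero fun h => by rw [hm, h] at this; simp at this
    rw [hm] at this
    nlinarith
  let k : Fin 8 → CV ψ := ![1, ⟨c0, c0C⟩, ⟨c1, c1C⟩, ⟨X * c0, mul_mem XC c0C⟩, ⟨X * c1, mul_mem XC c1C⟩,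
    ⟨X⁻¹ * c0, mul_mem (inv_mem XC) c0C⟩, ⟨X⁻¹ * c1, mul_mem (inv_mem XC) c1C⟩,
    ⟨c0⁻¹ * (X * c0), mul_mem (inv_mem c0C) (mul_mem XC c0C)⟩]
  let ω : Fin 8 → G := ![ψ u1, ψ p0, ψ p1, X * ψ p0 * X⁻¹, X * ψ p1 * X⁻¹, X⁻¹ * ψ p0 * X⁻¹⁻¹, X⁻¹ * ψ p1 * X⁻¹⁻¹,
    c0⁻¹ * (X * ψ p0 * X⁻¹) * c0]
  have kω : ∀ i, (k i : G) * ψ u1 * (k i : G)⁻¹ = ω i := fun i => by
    fin_cases i <;> simp only [k, ω, Fin.zero_eta, Fin.mk_one, Fin.reduceFinMk, Matrix.cons_val, ← h0, ← h1,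
      coe_one] <;> group
  haveI := Fintype.ofFinite (CV ψ ⧸ St.subgroupOf (CV ψ))
  obtain ⟨i, j, ij, hij⟩ := Fintype.exists_ne_map_eq_of_card_lt
    (fun i => (QuotientGroup.mk (k i) : CV ψ ⧸ St.subgroupOf (CV ψ))) (by simpa using ix)
  obtain ⟨-, v, hv, hv'⟩ := mem_subgroupOf.1 (QuotientGroup.eq.1 hij)
  have rel : ω j = ω i * ψ v := by
    rw [← kω, ← kω]
    simp only [coe_mul, coe_inv] at hv'
    calc _ = (k i : G) * (((k i : G)⁻¹ * k j) * ψ u1 * ((k i : G)⁻¹ * k j)⁻¹) * (k i : G)⁻¹ := by group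
      _ = k i * ψ u1 * (ψ v * (k i : G)⁻¹) := by rw [hv']; group
      _ = _ := by rw [(cV _ (k i).2 v hv).inv_right.eq]; group
  have iv : ∀ a y : G, ∀ v ∈ V1, Commute (ψ v) y → (Commute (a * ψ v) y ↔ Commute a y) := fun a y v _ h =>
    ⟨fun h' => by simpa using h'.mul_left h.inv_left, fun h' => h'.mul_left h⟩
  have cX : ∀ (a y Y : G), Commute (Y * a * Y⁻¹) (Y * y * Y⁻¹) ↔ Commute a y := fun a y Y =>
    ⟨fun h => by simpa [mul_assoc] using h.conj Y⁻¹, fun h => h.conj Y⟩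
  have Yz : X⁻¹ * ψ v2 * X⁻¹⁻¹ = ψ z2 := by rw [← Xz]; group
  have Yv : X⁻¹ * ψ (v2 * z2) * X⁻¹⁻¹ = ψ v2 := by rw [← Xv]; group
  have T1 : ∀ i : Fin 8, i ≠ 7 → (Commute (ω i) (ψ z2) ↔ i < 3) := fun i hi => by
    fin_cases i <;> simp only [ω, Fin.zero_eta, Fin.mk_one, Fin.reduceFinMk, Matrix.cons_val]
    · exact iff_of_true (cm _ _ (by decide)) (by decide)
    · exact iff_of_true b1 (by decide)
    · exact iff_of_true (cm _ _ b5) (by decide)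
    · exact iff_of_false (fun h => b3 (cm' _ _ ((cX _ _ X).1 (Xw.symm ▸ h)))) (by decide)
    · exact iff_of_false (fun h => b7 (cm' _ _ ((cX _ _ X).1 (Xw.symm ▸ h)))) (by decide)
    · exact iff_of_false (fun h => b2 (cm' _ _ ((cX _ _ X⁻¹).1 (Yz.symm ▸ h)))) (by decide)
    · exact iff_of_false (fun h => b6 (cm' _ _ ((cX _ _ X⁻¹).1 (Yz.symm ▸ h)))) (by decide)
    · exact absurd rfl hi
  have T2 : ∀ i : Fin 8, i ≠ 7 → (Commute (ω i) (ψ v2) ↔ (i = 0 ∨ i = 3 ∨ i = 4)) := fun i hi => by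
    fin_cases i <;> simp only [ω, Fin.zero_eta, Fin.mk_one, Fin.reduceFinMk, Matrix.cons_val]
    · exact iff_of_true (cm _ _ (by decide)) (by decide)
    · exact iff_of_false (fun h => b2 (cm' _ _ h)) (by decide)
    · exact iff_of_false (fun h => b6 (cm' _ _ h)) (by decide)
    · exact iff_of_true (Xz ▸ (cX _ _ X).2 b1) (by decide)
    · exact iff_of_true (Xz ▸ (cX _ _ X).2 (cm _ _ b5)) (by decide)
    · exact iff_of_false (fun h => b3 (cm' _ _ ((cX _ _ X⁻¹).1 (Yv.symm ▸ h)))) (by decide)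
    · exact iff_of_false (fun h => b7 (cm' _ _ ((cX _ _ X⁻¹).1 (Yv.symm ▸ h)))) (by decide)
    · exact absurd rfl hi
  have c3 : ∀ a Y : G, Commute Y X → (Y * a * Y⁻¹ * X * (Y * a * Y⁻¹)⁻¹ = X⁻¹ ↔ a * X * a⁻¹ = X⁻¹) := fun a Y h => by
    have e1 : Y * a * Y⁻¹ * X * (Y * a * Y⁻¹)⁻¹ = Y * (a * X * a⁻¹) * Y⁻¹ := by
      rw [mul_assoc (Y * a), h.inv_left.eq]; group
    have e2 : X⁻¹ = Y * X⁻¹ * Y⁻¹ := by rw [h.inv_right.eq]; group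
    rw [e1]
    conv_lhs => rw [e2]
    simp
  have T3 : ∀ i : Fin 8, i ≠ 7 → i ≠ 0 → (ω i * X * (ω i)⁻¹ = X⁻¹ ↔ i.1 % 2 = 1) := fun i hi hi' => by
    fin_cases i <;> simp only [ω, Fin.zero_eta, Fin.mk_one, Fin.reduceFinMk, Matrix.cons_val]
    · exact absurd rfl hi'
    · exact iff_of_true i0 (by decide)
    · exact iff_of_false i1 (by decide)
    · exact iff_of_true ((c3 _ _ (Commute.refl X)).2 i0) (by decide)
    · exact iff_of_false (fun h => i1 ((c3 _ _ (Commute.refl X)).1 h)) (by decide)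
    · exact iff_of_true ((c3 _ _ (Commute.refl X).inv_left).2 i0) (by decide)
    · exact iff_of_false (fun h => i1 ((c3 _ _ (Commute.refl X).inv_left).1 h)) (by decide)
    · exact absurd rfl hi
  have uX : Commute (ψ u1) X := (XD _ (by decide)).symm
  have u0 : Commute (ψ u1) (ψ p0) := cm _ _ (mul_inv_eq_iff_eq_mul.1 b4)
  have u1' : Commute (ψ u1) (ψ p1) := cm _ _ (mul_inv_eq_iff_eq_mul.1 b8)
  have q : ∀ a, Commute (ψ u1) a → ∃ w ∈ V1, ψ u1 * a * (ψ u1)⁻¹ = a * ψ w := fun a h =>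
    ⟨1, one_mem _, by rw [h.eq]; simp⟩
  have T4 : ∀ i : Fin 8, (∃ w ∈ V1, ψ u1 * ω i * (ψ u1)⁻¹ = ω i * ψ w) ↔ i ≠ 7 := fun i => by
    have t3 := T2 3 (by decide)
    have t5 := T2 5 (by decide)
    fin_cases i <;> simp only [ω, Fin.zero_eta, Fin.mk_one, Fin.reduceFinMk, Matrix.cons_val] at t3 t5 ⊢
    · exact iff_of_true (q _ (Commute.refl _)) (by decide)
    · exact iff_of_true (q _ u0) (by decide)
    · exact iff_of_true (q _ u1') (by decide)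
    · exact iff_of_true (q _ ((uX.mul_right u0).mul_right uX.inv_right)) (by decide)
    · exact iff_of_true (q _ ((uX.mul_right u1').mul_right uX.inv_right)) (by decide)
    · exact iff_of_true (q _ ((uX.inv_right.mul_right u0).mul_right uX.inv_right.inv_right)) (by decide)
    · exact iff_of_true (q _ ((uX.inv_right.mul_right u1').mul_right uX.inv_right.inv_right)) (by decide)
    · refine iff_of_false ?_ (by decide)
      rintro ⟨w, hw, h⟩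
      have e1 : X⁻¹ * ψ p0 * X⁻¹⁻¹ = X * ψ p0 * X⁻¹ * ψ w := by
        calc _ = ψ p0 * X * (ψ p0)⁻¹ * ψ p0 * (ψ p0 * X * (ψ p0)⁻¹)⁻¹ := by rw [i0]
          _ = c0 * ψ u1 * c0⁻¹ * (X * ψ p0 * X⁻¹) * (c0 * ψ u1 * c0⁻¹)⁻¹ := by rw [h0]; group
          _ = c0 * (ψ u1 * (c0⁻¹ * (X * ψ p0 * X⁻¹) * c0) * (ψ u1)⁻¹) * c0⁻¹ := by group
          _ = X * ψ p0 * X⁻¹ * (c0 * ψ w * c0⁻¹) := by rw [h]; group
          _ = _ := by rw [← (cV c0 c0C w hw).eq, mul_inv_cancel_right]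
      rw [e1, iv _ _ w hw (cm _ _ (d6 w hw).2.2.1.symm), t3] at t5
      exact absurd t5 (by decide)
  obtain ⟨v4, vz, vv, vu⟩ := d6 v hv
  refine ij (fin8 i j ?_ (fun hi hj => ?_) (fun hi hj => ?_) fun hi hj hi' hj' => ?_)
  · rw [← T4, ← T4, rel]
    constructor
    · rintro ⟨w, hw, h⟩
      refine ⟨v⁻¹ * w * (u1 * v * u1⁻¹), mul_mem (mul_mem (inv_mem hv) hw) vu, ?_⟩
      rw [map_mul, map_mul, ← cj, map_inv]
      calc _ = ψ u1 * ω i * (ψ u1)⁻¹ * (ψ u1 * ψ v * (ψ u1)⁻¹) := by group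
        _ = _ := by rw [h]; group
    · rintro ⟨w, hw, h⟩
      refine ⟨v * w * (u1 * v * u1⁻¹)⁻¹, mul_mem (mul_mem hv hw) (inv_mem vu), ?_⟩
      rw [map_mul, map_mul, map_inv, ← cj]
      calc _ = ψ u1 * (ω i * ψ v) * (ψ u1)⁻¹ * (ψ u1 * ψ v * (ψ u1)⁻¹)⁻¹ := by group
        _ = _ := by rw [h]; group
  · rw [← T1 i hi, ← T1 j hj, rel, iv _ _ v hv (cm _ _ vz.symm)]
  · rw [← T2 i hi, ← T2 j hj, rel, iv _ _ v hv (cm _ _ vv.symm)]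
  · rw [← T3 i hi hi', ← T3 j hj hj', rel]
    have : ω i * ψ v * X * (ω i * ψ v)⁻¹ = ω i * X * (ω i)⁻¹ := by
      rw [mul_assoc (ω i), ← (XD v v4).eq]; group
    rw [this]

end H10.QwP7
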