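import Cfsg.Agent.H16.CRing2
import Cfsg.Agent.H16.PermModule
import Mathlib.Algebra.Group.ForwardDiff
import Mathlib.RingTheory.Valuation.LocalSubring
/-! Primitive groups of degree `2p` with a fixed-point-free element of order `p`: the permutation
module has no invariant subspace of dimension between `2` and `p/2` (`no_small`, `no_small_C`);
reduction of invariant subspaces modulo `p` (`exists_reduction`). -/

namespace H10
open MulAction Subgroup H16 Module Polynomial
open scoped fwdDiff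

variable {G Ω : Type*} [Group G] [MulAction G Ω] {p : ℕ} [hp : Fact p.Prime]

section Mod
variable {k : Type*} [Field k]

/-- The difference operator of `σ` on functions. -/
def dif (k : Type*) [Field k] (Ω : Type*) [MulAction G Ω] (σ : G) : End k (Ω → k) :=
  LinearMap.funLeft k k (σ • ·) - 1

theorem dif_apply (σ : G) (f : Ω → k) (x : Ω) : dif k Ω σ f x = f (σ • x) - f x := rfl

theorem dif_mul (σ : G) (n : ℕ) : ∀ (a b : ℕ) (f f' : Ω → k), a + b = n + 1 → (dif k Ω σ ^ a) f = 0 →
    (dif k Ω σ ^ b) f' = 0 → (dif k Ω σ ^ n) (f * f') = 0 := by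
  induction n with
  | zero =>
    rintro (_ | a) (_ | b) f f' h h1 h2
    · omega
    · simp [show f = 0 from h1]
    · simp [show f' = 0 from h2]
    · omega
  | succ n ih =>
    rintro (_ | a) (_ | b) f f' h h1 h2
    · omega
    · simp [show f = 0 from h1]
    · simp [show f' = 0 from h2]
    rw [pow_succ, End.mul_apply, show dif k Ω σ (f * f') = dif k Ω σ f * (dif k Ω σ f' + f') +
      f * dif k Ω σ f' from funext fun x => by simp [dif_apply]; ring, map_add,
      ih a (b + 1) _ _ (by omega) h1 (by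
        rw [map_add, h2, ← End.mul_apply, ← pow_succ, pow_succ', End.mul_apply, h2]; simp),
      ih (a + 1) b _ _ (by omega) h1 h2, add_zero]

theorem funLeft_pow (σ : G) (f : Ω → k) (i : ℕ) :
    ∀ x, (LinearMap.funLeft k k (σ • · : Ω → Ω) ^ i) f x = f (σ ^ i • x) := by
  induction i with
  | zero => simp
  | succ i ih => intro x; rw [pow_succ', End.mul_apply, pow_succ, mul_smul, ← ih]; rfl

variable [CharP k p]

theorem sum_eq_zero_of_dif {σ : G} {f : Ω → k} {d : ℕ} (hd : d < p) (h : (dif k Ω σ ^ d) f = 0)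
    (x : Ω) : ∑ i ∈ Finset.range p, f (σ ^ i • x) = 0 := by
  have h1 : ∑ j ∈ Finset.range p, (X : k[X]) ^ j = (X - 1) ^ (p - 1) := by
    apply mul_right_cancel₀ (X_sub_C_ne_zero (1 : k))
    rw [C_1, geom_sum_mul, ← pow_succ, Nat.sub_add_cancel hp.out.one_le, sub_pow_char, one_pow]

  have h3 := congrArg (fun q => aeval (LinearMap.funLeft k k (σ • · : Ω → Ω)) q f x) h1
  simp only [map_sum, map_pow, aeval_X, map_sub, map_one, LinearMap.sum_apply, Finset.sum_apply,
    funLeft_pow] at h3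
  rw [h3, show p - 1 = (p - 1 - d) + d by omega, pow_add, End.mul_apply]
  exact congrFun ((congrArg _ h).trans (map_zero _)) x

variable [Fintype Ω] [IsPreprimitive G Ω] (hΩ : Fintype.card Ω = 2 * p) {σ : G} (hσ : σ ^ p = 1)
  (fp : ∀ x : Ω, σ • x ≠ x)
include hΩ hσ fp

omit [IsPreprimitive G Ω] [CharP k p] in
theorem two_orbits (x : Ω) : ∃ y, (∀ i : ℕ, σ ^ i • x ≠ y) ∧
    ∀ z, (∃ i : ℕ, σ ^ i • x = z) ∨ ∃ i : ℕ, σ ^ i • y = z := by
  have c : Nat.card (zpowers σ) = p := by
    rw [Nat.card_zpowers, orderOf_eq_prime hσ fun e => fp x (by simp [e])]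
  have h : ∀ y : Ω, (orbit (zpowers σ) y).ncard = p := fun y => by
    rw [← index_stabilizer]
    exact ((Nat.dvd_prime hp.out).1 (c ▸ index_dvd_card _)).resolve_left fun e =>
      fp y ((index_eq_one.1 e).ge (x := ⟨σ, mem_zpowers σ⟩) trivial)
  have := hp.out.pos
  have h1 : ∀ x z : Ω, z ∈ orbit (zpowers σ) x ↔ ∃ i : ℕ, σ ^ i • x = z := fun x z =>
    ⟨fun ⟨⟨_, hu⟩, e⟩ => (((isOfFinOrder_iff_pow_eq_one.2 ⟨p, this, hσ⟩).mem_powers_iff_mem_zpowers).2
      hu).elim fun i hi => ⟨i, by rw [show σ ^ i = _ from hi]; exact e⟩, fun ⟨i, e⟩ => ⟨⟨_, npow_mem_zpowers σ i⟩, e⟩⟩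
  obtain ⟨y, -, hy⟩ := Set.exists_mem_notMem_of_ncard_lt_ncard (t := Set.univ)
    (s := orbit (zpowers σ) x) (by rw [h, Set.ncard_univ, Nat.card_eq_fintype_card]; omega)
  refine ⟨y, fun i e => hy ((h1 _ _).2 ⟨i, e⟩), fun z => ?_⟩
  rw [← h1, ← h1]
  refine (Set.eq_of_subset_of_ncard_le (s := orbit (zpowers σ) x ∪ orbit (zpowers σ) y)
    (Set.subset_univ _) ?_).ge (Set.mem_univ z)
  rw [Set.ncard_union_eq ((orbit.eq_or_disjoint _ _).resolve_left fun e => hy (e.ge (mem_orbit_self y))),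
    h, h, Set.ncard_univ, Nat.card_eq_fintype_card, hΩ, two_mul]

theorem const_of_dif {f : Ω → k} (h0 : dif k Ω σ f = 0)
    (h : ∀ (g : G) x, ∑ i ∈ Finset.range p, f (g • σ ^ i • x) = 0) (x y : Ω) : f x = f y := by
  classical
  have h1 : ∀ x (i : ℕ), f (σ ^ i • x) = f x := fun x i => by
    induction i with
    | zero => simp
    | succ i ih => rw [pow_succ', mul_smul, ← ih]; exact sub_eq_zero.1 (congrFun h0 _)
  obtain ⟨w, -, h2⟩ := two_orbits hΩ hσ fp x
  have h3 : ∀ z, f z = f x ∨ f z = f w := fun z =>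
    (h2 z).imp (fun ⟨i, e⟩ => e ▸ h1 x i) fun ⟨i, e⟩ => e ▸ h1 w i
  have h4 : ∀ (g : G) z, f (g • z) = f (g • σ • z) := fun g z => by
    by_contra e
    have e1 : ∀ u, f u = f (g • z) ∨ f u = f (g • σ • z) := fun u => by
      rcases h3 u with a | a <;> rcases h3 (g • z) with b | b <;> rcases h3 (g • σ • z) with c | c <;>
        simp_all
    have e2 := h g z
    let s := (Finset.range p).filter fun i => f (g • σ ^ i • z) = f (g • z)
    rw [Finset.sum_congr rfl (g := fun i => f (g • σ • z) + if f (g • σ ^ i • z) = f (g • z) then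
      f (g • z) - f (g • σ • z) else 0) fun i _ => by
        split_ifs with a
        · rw [a]; ring
        · rw [(e1 _).resolve_left a, add_zero], Finset.sum_add_distrib, ← Finset.sum_filter] at e2
    simp only [Finset.sum_const, Finset.card_range, nsmul_eq_mul, CharP.cast_eq_zero, zero_mul,
      zero_add, mul_eq_zero, sub_eq_zero, e, or_false, CharP.cast_eq_zero_iff k p] at e2
    refine absurd (Nat.le_of_dvd (Finset.card_pos.2 ⟨0, by simp [hp.out.pos]⟩) e2) (not_le.2 ?_)
    exact (Finset.card_lt_card (Finset.filter_ssubset.2 ⟨1, by simp [hp.out.one_lt], by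
      simpa using Ne.symm e⟩)).trans_eq (Finset.card_range p)
  simpa using rel_of_primitive (G := G) (fun u v => ∀ g : G, f (g • u) = f (g • v))
    ⟨fun _ _ => rfl, fun h g => (h g).symm, fun h h' g => (h g).trans (h' g)⟩
    (fun g u v h k => by simpa only [mul_smul] using h (k * g)) (fp x).symm (h4 · x) x y 1

theorem no_small {U : Submodule k (Ω → k)} (hU : PInv G U) (d : ℕ) (h2 : 2 * d ≤ p)
    (hd : ∀ f ∈ U, (dif k Ω σ ^ d) f = 0) : ∀ f ∈ U, ∀ x y, f x = f y := by
  induction d with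
  | zero => intro f hf x y; simp [show f = 0 from hd f hf]
  | succ d ih =>
  by_cases h0 : ∀ f ∈ U, (dif k Ω σ ^ d) f = 0
  · exact ih (by omega) h0
  push Not at h0
  obtain ⟨f₀, h0, h1⟩ := h0
  let W : Submodule k (Ω → k) :=
    { carrier := {f | ∀ (g : G) x, ∑ i ∈ Finset.range p, f (g • σ ^ i • x) = 0}
      add_mem' := fun h h' g x => by simp [Finset.sum_add_distrib, h g x, h' g x]
      zero_mem' := by simp
      smul_mem' := fun c f h g x => by simp [← Finset.mul_sum, h g x] }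
  have w0 : ∀ f ∈ W, ∀ i, (dif k Ω σ ^ i) f ∈ W := fun f hf i => End.pow_apply_mem_of_forall_mem
    (p := W) i (fun f hf g x => by simpa [dif_apply, mul_smul, hf g x] using hf (σ * g) x) f hf
  have u0 : ∀ f ∈ U, ∀ i, (dif k Ω σ ^ i) f ∈ U := fun f hf i => End.pow_apply_mem_of_forall_mem i
    (fun f hf => U.sub_mem (hU σ f hf) hf) f hf
  have w1 : U ≤ W := fun f hf g => sum_eq_zero_of_dif (by omega) (hd _ (hU g f hf))
  have w2 : ∀ f ∈ U, ∀ f' ∈ U, f * f' ∈ W := fun f hf f' hf' g => sum_eq_zero_of_dif (by omega)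
    (dif_mul σ (2 * d + 1) _ _ _ _ (by omega) (hd _ (hU g f hf)) (hd _ (hU g f' hf')))
  obtain ⟨x₀⟩ : Nonempty Ω := Fintype.card_pos_iff.1 (by omega)
  have w3 : ∀ f ∈ W, ∀ j, (dif k Ω σ ^ (j + 1)) f = 0 →
      (dif k Ω σ ^ j) f = (dif k Ω σ ^ j) f x₀ • 1 := fun f hf j h => funext fun x => by
    simpa using const_of_dif hΩ hσ fp (by rwa [pow_succ'] at h) (w0 f hf j) x x₀
  obtain ⟨f₁, h3, h4⟩ : ∃ f₁ ∈ U, (dif k Ω σ ^ d) f₁ = 1 := by
    have := w3 f₀ (w1 h0) d (hd _ h0)
    refine ⟨_ • f₀, U.smul_mem ((dif k Ω σ ^ d) f₀ x₀)⁻¹ h0, ?_⟩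
    rw [map_smul, this, smul_smul, Pi.smul_apply, Pi.one_apply, smul_eq_mul, mul_one,
      inv_mul_cancel₀ fun e => h1 (by rw [this, e, zero_smul]), one_smul]
  have w4 : ∀ j ≤ d + 1, ∀ f ∈ W, (dif k Ω σ ^ j) f = 0 → f ∈ U := fun j => by
    induction j with
    | zero => intro _ f _ h; simp [show f = 0 from h]
    | succ j ih =>
      intro hj f hf h
      have e := U.smul_mem ((dif k Ω σ ^ j) f x₀) (u0 f₁ h3 (d - j))
      simpa using U.add_mem e (ih (by omega) _ (W.sub_mem hf (w1 e)) (by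
        rw [map_sub, map_smul, ← End.mul_apply _ _ f₁, ← pow_add, show j + (d - j) = d by omega, h4,
          ← w3 f hf j h, sub_self]))
  rcases d with _ | d
  · exact fun f hf => const_of_dif hΩ hσ fp (hd f hf) (w1 hf)
  obtain ⟨c, c0, c1⟩ : ∃ c ∈ U, ∀ x, c (σ • x) = c x + 1 := ⟨_, u0 f₁ h3 d, fun x =>
    (sub_eq_iff_eq_add'.1 (congrFun (show dif k Ω σ _ = 1 by rwa [pow_succ'] at h4) x))⟩
  have c2 : ∀ (j : ℕ) (q : k → k), (dif k Ω σ ^ j) (fun x => q (c x)) = fun x => Δ_[1]^[j] q (c x) :=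
    fun j => by
      induction j with
      | zero => simp
      | succ j ih =>
        intro q
        rw [pow_succ, End.mul_apply, Function.iterate_succ_apply, ← ih]
        exact congrArg _ (funext fun x => by simp [dif_apply, c1, fwdDiff])
  have c3 : ∀ j ≤ d + 1, (fun x => c x ^ j) ∈ U := fun j => by
    induction j with
    | zero =>
      exact fun _ => w4 1 (by omega) _ (fun g x => by simp) (funext fun x => by simp [dif_apply])
    | succ j ih =>
      exact fun hj => w4 (j + 2) (by omega) _ (by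
        simp only [pow_succ]; exact w2 _ (ih (by omega)) c c0) (by
          rw [c2 _ (· ^ (j + 1)), fwdDiff_iter_pow_eq_zero_of_lt (by omega)]; rfl)
  have c4 : ∀ x y, c x = c y → ∀ j ≤ d + 2, ∀ f ∈ W, (dif k Ω σ ^ j) f = 0 → f x = f y :=
    fun x y e j => by
      induction j with
      | zero => intro _ f _ h; simp [show f = 0 from h]
      | succ j ih =>
        intro hj f hf h
        have e1 : (j.factorial : k) ≠ 0 := fun e => absurd ((hp.out.dvd_factorial).1
          ((CharP.cast_eq_zero_iff k p _).1 e)) (by omega)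
        simpa [e] using ih (by omega) _ (W.sub_mem hf (W.smul_mem ((dif k Ω σ ^ j) f x₀ / j.factorial)
          (w1 (c3 j (by omega))))) (by
            rw [map_sub, map_smul, c2 _ (· ^ j), fwdDiff_iter_eq_factorial, w3 f hf j h]
            ext z; simp [e1])
  have c5 : ∀ (i : ℕ) x, c (σ ^ i • x) = c x + i := fun i x => by
    induction i with
    | zero => simp
    | succ i ih => rw [pow_succ', mul_smul, c1, ih]; push_cast; ring
  obtain ⟨y, y1, -⟩ := two_orbits hΩ hσ fp x₀
  have c6 := const_of_dif hΩ hσ fp (f := fun x => c x ^ p - c x)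
    (funext fun x => by simp [dif_apply, c1, add_pow_char]) (fun g x => by
      rw [Finset.sum_sub_distrib, ← sum_pow_char, w1 c0 g x, zero_pow hp.out.ne_zero, sub_zero]) y x₀
  obtain ⟨n, hn⟩ := (mem_bot_iff_intCast p k).1 ((Subfield.mem_bot_iff_pow_eq_self k p
    (x := c y - c x₀)).2 (by rw [sub_pow_char]; linear_combination c6))
  obtain ⟨i, hi⟩ : ∃ i : ℕ, (i : k) = n := ⟨(n : ZMod p).val, by
    rw [← map_natCast (ZMod.castHom (dvd_refl p) k), ZMod.natCast_zmod_val, map_intCast]⟩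
  exact fun f hf x z => rel_of_primitive (G := G) (fun u v => ∀ f ∈ U, f u = f v)
    ⟨fun _ _ _ => rfl, fun h f hf => (h f hf).symm, fun h h' f hf => (h f hf).trans (h' f hf)⟩
    (fun g u v h f hf => h _ (hU g f hf)) (y1 i) (fun f hf => c4 _ _ (by rw [c5, hi, hn]; ring) _
      le_rfl f (w1 hf) (hd f hf)) x z f hf

end Mod

theorem exists_scale {K ι : Type*} [Field K] [Fintype ι] (V : ValuationSubring K) {f : ι → K}
    (hf : f ≠ 0) : ∃ i, f i ≠ 0 ∧ ∀ j, f j / f i ∈ V := by
  obtain ⟨j, hj⟩ := Function.ne_iff.1 hf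
  obtain ⟨i, -, hi⟩ := Finset.exists_max_image Finset.univ (fun i => V.valuation (f i)) ⟨j, by simp⟩
  have h : f i ≠ 0 := fun e => hj (by simpa [e] using hi j (by simp))
  exact ⟨i, h, fun j => (V.valuation_le_one_iff _).1 (by
    rw [map_div₀]; exact div_le_one_of_le₀ (hi j (by simp)) zero_le)⟩

theorem exists_reduction [Fintype Ω] {U : Submodule ℂ (Ω → ℂ)} (hU : PInv G U)
    (h2 : 2 ≤ finrank ℂ U) : ∃ (k : Type) (_ : Field k) (_ : CharP k p) (U' : Submodule k (Ω → k)),
      PInv G U' ∧ finrank k U' ≤ finrank ℂ U ∧ ∃ f ∈ U', ∃ x y, f x ≠ f y := by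
  obtain ⟨V, -, hV⟩ := Ideal.image_subset_nonunits_valuationSubring (A := (⊥ : Subring ℂ))
    (Ideal.span {(p : (⊥ : Subring ℂ))}) fun e => by
      obtain ⟨⟨_, n, rfl⟩, h⟩ := isUnit_iff_exists_inv.1 (Ideal.span_singleton_eq_top.1 e)
      have : (p : ℂ) * n = 1 := by simpa using congrArg Subtype.val h
      have : (p : ℤ) * n = 1 := by exact_mod_cast this
      exact hp.out.one_lt.ne' (by exact_mod_cast Int.eq_one_of_mul_eq_one_right (by positivity) this)
  let r := IsLocalRing.residue V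
  let U' : Submodule (IsLocalRing.ResidueField V) (Ω → IsLocalRing.ResidueField V) :=
    { carrier := {f | ∃ F : Ω → V, (fun x => (F x : ℂ)) ∈ U ∧ f = fun x => r (F x)}
      add_mem' := by
        rintro _ _ ⟨F, h, rfl⟩ ⟨F', h', rfl⟩
        exact ⟨F + F', U.add_mem h h', funext fun x => by simp⟩
      zero_mem' := ⟨0, U.zero_mem, funext fun x => by simp⟩
      smul_mem' := by
        rintro c _ ⟨F, h, rfl⟩
        obtain ⟨c, rfl⟩ := IsLocalRing.residue_surjective c
        exact ⟨c • F, U.smul_mem (c : ℂ) h, funext fun x => by simp [r]⟩ }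
  refine ⟨_, inferInstance, (CharP.charP_iff_prime_eq_zero hp.out).2 ?_, U', ?_, ?_, ?_⟩
  · rw [← map_natCast r, IsLocalRing.residue_eq_zero_iff, ← V.coe_mem_nonunits_iff]
    exact hV ⟨_, Ideal.mem_span_singleton_self _, by simp⟩
  · rintro g _ ⟨F, h, rfl⟩
    exact ⟨fun x => F (g • x), hU g _ h, rfl⟩
  · let b := Module.finBasis (IsLocalRing.ResidueField V) U'
    choose F h1 h3 using fun i => (b i).2
    have := LinearIndependent.fintype_card_le_finrank (R := ℂ) (b := fun i => (⟨_, h1 i⟩ : U))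
      (Fintype.linearIndependent_iff.2 fun c hc => ?_)
    · simpa using this
    by_contra! h
    obtain ⟨i, h4, h5⟩ := exists_scale V (f := c) (Function.ne_iff.2 h)
    have := Fintype.linearIndependent_iff.1 b.linearIndependent (fun j => r ⟨_, h5 j⟩)
      (Subtype.ext (funext fun x => ?_)) i
    · simp only [div_self h4] at this
      exact one_ne_zero ((map_one r).symm.trans this)
    have e : ∑ j, (⟨_, h5 j⟩ : V) * F j x = 0 := Subtype.ext (by
      have := congrFun (congrArg Subtype.val hc) x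
      simp only [Submodule.coe_sum, Finset.sum_apply, SetLike.mk_smul_mk, Pi.smul_apply,
        smul_eq_mul, ZeroMemClass.coe_zero, Pi.zero_apply] at this
      simp [div_mul_eq_mul_div, ← Finset.sum_div, this])
    simpa [h3] using congrArg r e
  · obtain ⟨x⟩ : Nonempty Ω := by
      by_contra! h
      have := (Submodule.finrank_le U).trans_eq (finrank_fintype_fun_eq_card ℂ)
      rw [Fintype.card_eq_zero] at this
      omega
    obtain ⟨⟨f, hf⟩, h3, h4⟩ := (Submodule.ne_bot_iff _).1 (LinearMap.ker_ne_bot_of_finrank_lt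
      (f := (LinearMap.proj x).domRestrict U) (by rw [finrank_self]; exact h2))
    obtain ⟨i, h5, h6⟩ := exists_scale V (f := f) fun e => h4 (Subtype.ext e)
    refine ⟨_, ⟨fun j => ⟨_, h6 j⟩, ?_, rfl⟩, x, i, ?_⟩
    · simp only [div_eq_inv_mul]; exact U.smul_mem (f i)⁻¹ hf
    · simp only [show f x = 0 from h3, div_self h5, zero_div]
      exact fun e => zero_ne_one ((map_zero r).symm.trans (e.trans (map_one r)))

theorem no_small_C [Fintype Ω] [IsPreprimitive G Ω] (hΩ : Fintype.card Ω = 2 * p) {σ : G}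
    (hσ : σ ^ p = 1) (fp : ∀ x : Ω, σ • x ≠ x) {U : Submodule ℂ (Ω → ℂ)} (hU : PInv G U)
    (h2 : 2 ≤ finrank ℂ U) : p < 2 * finrank ℂ U := by
  by_contra! h
  obtain ⟨k, _, _, U', h1, h3, f, hf, x, y, e⟩ := exists_reduction (p := p) hU h2
  refine e (no_small hΩ hσ fp h1 (finrank k U') (by omega) (fun f hf => ?_) f hf x y)
  have h4 : ∀ f ∈ U', dif k Ω σ f ∈ U' := fun f hf => U'.sub_mem (h1 σ f hf) hf
  have h5 := End.ker_pow_le_ker_pow_finrank ((dif k Ω σ).restrict h4) p (x := ⟨f, hf⟩) (by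
    rw [LinearMap.mem_ker, End.pow_restrict]
    refine Subtype.ext (funext fun x => ?_)
    simpa [funLeft_pow, hσ, dif] using congrArg
      (fun q => aeval (LinearMap.funLeft k k (σ • · : Ω → Ω)) q f x) (sub_pow_char (X : k[X]) 1 (p := p)))
  rw [LinearMap.mem_ker, End.pow_restrict] at h5
  exact congrArg Subtype.val h5

end H10
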