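import Cfsg.Agent.H10.W2p
/-! Wielandt's theorem on primitive groups of degree `2p`: the permutation character is
`1 + χ` or `1 + χ₁ + χ₂` with degrees `p - 1` and `p` (`wielandt_two_p`). -/

namespace H10
open MulAction Subgroup H16 H5 Cfsg Module Matrix
open scoped ComplexConjugate

variable {G Ω : Type*} [Group G] [MulAction G Ω] {p : ℕ} [hp : Fact p.Prime] [Fintype G]
  [Fintype Ω] [IsPreprimitive G Ω] (hΩ : Fintype.card Ω = 2 * p) {σ : G} (hσ : σ ^ p = 1)
  (fp : ∀ x : Ω, σ • x ≠ x)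
include hΩ hσ fp

theorem lt_two_mul_deg {χ : G → ℂ} (hχ : IsIrrCharacter G χ) (h1 : χ ≠ fun _ => 1) {m d : ℕ}
    (hm : classInner (pc G Ω) χ = m) (hd : χ 1 = d) (h0 : m ≠ 0) : p < 2 * (m * d) := by
  classical
  have e : finrank ℂ (LinearMap.range (toLin' (E Ω χ))) = m * d := by
    have := ((LinearMap.isProj_range_iff_isIdempotentElem (toLin' (E Ω χ))).2 (by
      rw [toLin_E]; exact idem_idem _ hχ)).trace
    rw [trace_toLin'_eq, trace_E hχ, hm, hd] at this
    exact_mod_cast this.symm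
  rcases Nat.lt_or_ge (m * d) 2 with h | h
  · obtain rfl : d = 1 := by
      have : d ≠ 0 := fun e => hχ.apply_one_ne_zero (by simp [hd, e])
      exact Nat.eq_one_of_mul_eq_one_left (m := m) (by have := mul_ne_zero h0 this; omega)
    obtain ⟨x, y, h2⟩ : ∃ x y, E Ω χ x y ≠ 0 := by
      by_contra! h; exact E_ne_zero hχ (by rw [hm]; exact_mod_cast h0) (Matrix.ext h)
    have h3 : ∀ (g : G) x, E Ω χ (g • x) y = conj (χ g) * E Ω χ x y := fun g x => by
      rw [E_apply, E_apply, ← Equiv.sum_comp (Equiv.mulLeft g), Finset.mul_sum]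
      refine Finset.sum_congr rfl fun u _ => ?_
      simp only [Equiv.coe_mulLeft, mul_smul, smul_left_cancel_iff,
        hχ.isCharacter.map_mul_of_apply_one (by simpa using hd), map_mul]
      split_ifs <;> ring
    have h4 : ∀ i : ℕ, χ (σ ^ i) = χ σ ^ i := fun i => by
      induction i with
      | zero => simpa using hd
      | succ i ih => rw [pow_succ, hχ.isCharacter.map_mul_of_apply_one (by simpa using hd), ih, pow_succ]
    have h5 := rel_of_primitive (G := G) (fun u v => E Ω χ u y ^ p = E Ω χ v y ^ p)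
      ⟨fun _ => rfl, .symm, .trans⟩ (fun g u v h => by rw [h3, h3, mul_pow, mul_pow, h]) (fp x).symm
      (by rw [h3, mul_pow, ← map_pow, ← h4, hσ, hd]; simp)
    obtain ⟨u, v, h6, h7⟩ : ∃ u v, u ≠ v ∧ E Ω χ u y = E Ω χ v y := by
      by_contra! h
      have := (Finset.card_le_card_of_injOn (s := Finset.univ) (fun u => E Ω χ u y)
        (t := (Polynomial.nthRoots p (E Ω χ x y ^ p)).toFinset) (fun u _ => by
          simpa [Polynomial.mem_nthRoots hp.out.pos] using h5 u x) fun u _ v _ e => by_contra fun n => h u v n e).trans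
        ((Multiset.toFinset_card_le _).trans (Polynomial.card_nthRoots _ _))
      have := hp.out.pos
      rw [Finset.card_univ] at *
      omega
    refine absurd (funext fun g => ?_) h1
    have := rel_of_primitive (G := G) (fun u v => E Ω χ u y = E Ω χ v y)
      ⟨fun _ => rfl, .symm, .trans⟩ (fun g u v h => by rw [h3, h3, h]) h6 h7 (g • x) x
    rw [h3, mul_eq_right₀ h2] at this
    simpa using congrArg conj this
  · refine e ▸ no_small_C hΩ hσ fp ?_ (e ▸ h)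
    rintro g _ ⟨w, rfl⟩
    refine ⟨fun x => w (g • x), funext fun x => ?_⟩
    simp only [toLin'_apply, mulVec, dotProduct]
    rw [← sum_smul_comp g fun y => E Ω χ (g • x) y * w y]
    simp only [minv_E hχ g]

omit [IsPreprimitive G Ω] in
open Classical in
theorem exists_eig_mult {m d : IrrCharacter G → ℕ} (m1 : ∀ χ : IrrCharacter G, classInner (pc G Ω) χ = m χ)
    (d1 : ∀ χ : IrrCharacter G, χ.1 1 = d χ ∧ 0 < d χ) : ∃ a : IrrCharacter G → ℕ → ℕ,
    (∀ j, ∑ χ, m χ * a χ j = 2) ∧ (∀ χ, ∑ j ∈ Finset.range p, a χ j = d χ) ∧ a (irrOne G) 0 = 1 ∧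
    a (irrOne G) 1 = 0 ∧ ∀ j, 0 < j → j < p → ∀ χ : IrrCharacter G, ∃ ψ : IrrCharacter G, m ψ = m χ ∧
      (ψ = irrOne G → χ = irrOne G) ∧ a ψ 0 = a χ 0 ∧ a ψ j = a χ 1 := by
  have p1 := hp.out.one_lt
  have p0 : (p : ℂ) ≠ 0 := by exact_mod_cast hp.out.ne_zero
  have hζ := Complex.isPrimitiveRoot_exp p hp.out.ne_zero
  generalize Complex.exp _ = ζ at hζ
  have g1 : ∀ z : ℂ, z ^ p = 1 → ∑ i ∈ Finset.range p, z ^ i = if z = 1 then (p : ℂ) else 0 :=
    fun z hz => by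
      split_ifs with h
      · simp [h]
      · exact (mul_eq_zero.1 ((mul_geom_sum z p).trans (by rw [hz, sub_self]))).resolve_left
          (sub_ne_zero.2 h)
  have z1 : ∀ j, (ζ ^ j) ^ p = 1 := fun j => by rw [← pow_mul, mul_comm, pow_mul, hζ.1, one_pow]
  obtain ⟨a₀⟩ : Nonempty Ω := Fintype.card_pos_iff.1 (by omega)
  have o : orderOf σ = p := orderOf_eq_prime hσ fun e => fp a₀ (by simp [e])
  have : ∀ (χ : IrrCharacter G) (j : ℕ), ∃ n : ℕ,
      ∑ i ∈ Finset.range p, χ.1 (σ ^ i) * (ζ ^ j) ^ i = p * n := fun χ j => by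
    obtain ⟨n, ε, -, h1, h2⟩ := χ.2.isCharacter.exists_eigenvalues σ
    refine ⟨(Finset.univ.filter fun t => ε t * ζ ^ j = 1).card, ?_⟩
    simp only [h2, Finset.sum_mul, ← mul_pow]
    rw [Finset.sum_comm, Finset.sum_congr rfl fun t _ => g1 _ (by rw [mul_pow, ← o, h1, o, z1, one_mul])]
    simp [Finset.sum_ite, mul_comm]
  choose a ha using this
  have hπ : ∀ g, pc G Ω g = ∑ χ, (m χ : ℂ) * χ.1 g := fun g =>
    ((isCharacter_fixedBy Ω).isClassFunction.apply_eq_sum_irr g).trans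
      (Finset.sum_congr rfl fun χ _ => by rw [← m1])
  have zj : ∀ j, 0 < j → j < p → ζ ^ j ≠ 1 := fun j h1 h2 => hζ.pow_ne_one_of_pos_of_lt h1.ne' h2
  refine ⟨a, fun j => ?_, fun χ => ?_, ?_, ?_, fun j h1 h2 χ => ?_⟩
  · have : (p : ℂ) * ∑ χ, (m χ * a χ j : ℕ) = p * 2 := by
      push_cast
      simp only [Finset.mul_sum, mul_left_comm (p : ℂ), ← ha, ← mul_assoc]
      rw [Finset.sum_comm]
      simp only [← Finset.sum_mul, ← hπ]
      rw [Finset.sum_eq_single_of_mem 0 (by simp [hp.out.pos]) fun i hi h0 => ?_]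
      · simp [pc, hΩ, mul_comm]
      have : IsEmpty (fixedBy Ω (σ ^ i)) := ⟨fun x => fp x <| by
        have : σ ∈ zpowers (σ ^ i) := mem_zpowers_pow_iff.2 (by
          rw [o]; exact ((Nat.coprime_of_lt_prime h0 (Finset.mem_range.1 hi) hp.out).symm))
        exact (zpowers_le (H := stabilizer G x.1)).2 x.2 this⟩
      simp [pc]
    exact_mod_cast mul_left_cancel₀ p0 this
  · have : (p : ℂ) * ∑ j ∈ Finset.range p, (a χ j : ℂ) = p * d χ := by
      simp only [Finset.mul_sum, ← ha, ← pow_mul]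
      rw [Finset.sum_comm]
      simp only [← Finset.mul_sum, mul_comm _ (_ : ℕ), pow_mul, g1 _ (z1 _)]
      rw [Finset.sum_eq_single_of_mem 0 (by simp [hp.out.pos]) fun i hi h0 => by
        rw [if_neg (zj i (Nat.pos_of_ne_zero h0) (Finset.mem_range.1 hi)), mul_zero]]
      simp [(d1 χ).1, mul_comm]
    exact_mod_cast mul_left_cancel₀ p0 this
  · have := ha (irrOne G) 0
    simp only [irrOne, pow_zero, one_pow, mul_one, Finset.sum_const, Finset.card_range, nsmul_eq_mul] at this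
    exact_mod_cast (mul_right_eq_self₀.1 this.symm).resolve_right p0
  · have := ha (irrOne G) 1
    simp only [irrOne, one_mul, g1 _ (z1 _), if_neg (zj 1 one_pos p1)] at this
    exact_mod_cast (mul_eq_zero.1 this.symm).resolve_left p0
  obtain ⟨τ, hτ⟩ := exists_ringEquiv_pow hp.out.pos (Nat.coprime_of_lt_prime h1.ne' h2 hp.out).symm
  refine ⟨⟨_, χ.2.map_ringHom (τ : ℂ →+* ℂ)⟩, ?_, fun e => Subtype.ext (funext fun g => τ.injective
    ((congrFun (congrArg Subtype.val e) g).trans (map_one τ).symm)), ?_, ?_⟩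
  · exact_mod_cast (m1 ⟨_, χ.2.map_ringHom (τ : ℂ →+* ℂ)⟩).symm.trans ((inner_pc_map _ χ.2).trans (m1 _))
  · have := congrArg τ (ha χ 0)
    have h := ha ⟨_, χ.2.map_ringHom (τ : ℂ →+* ℂ)⟩ 0
    simp only [map_sum, map_mul, map_natCast, pow_zero, one_pow, map_one] at this h
    exact_mod_cast mul_left_cancel₀ p0 (h.symm.trans this)
  · have := congrArg τ (ha χ 1)
    simp only [map_sum, map_mul, map_natCast, pow_one, map_pow, hτ _ hζ.1] at this
    exact_mod_cast mul_left_cancel₀ p0 ((ha ⟨_, χ.2.map_ringHom (τ : ℂ →+* ℂ)⟩ j).symm.trans this)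

theorem wielandt_two_p (a₀ : Ω) : IsMultiplyPretransitive G Ω 2 ∨
    Nat.card (orbitRel.Quotient (stabilizer G a₀) Ω) = 3 ∧ ∃ χ₁ χ₂ : G → ℂ, IsIrrCharacter G χ₁ ∧
      IsIrrCharacter G χ₂ ∧ (pc G Ω = fun g => 1 + χ₁ g + χ₂ g) ∧ χ₁ 1 = (p : ℂ) - 1 ∧ χ₂ 1 = p := by
  classical
  have p1 := hp.out.one_lt
  obtain ⟨m, d, m1, d1, s1, s2⟩ := exists_mult (G := G) a₀
  obtain ⟨a, S, S2, S3, S4, T⟩ := exists_eig_mult hΩ hσ fp m1 d1
  have hπ : ∀ g, pc G Ω g = ∑ χ, (m χ : ℂ) * χ.1 g := fun g =>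
    ((isCharacter_fixedBy Ω).isClassFunction.apply_eq_sum_irr g).trans
      (Finset.sum_congr rfl fun χ _ => by rw [← m1])
  have : Nonempty Ω := ⟨a₀⟩
  have m0 : m (irrOne G) = 1 := by
    exact_mod_cast (m1 (irrOne G)).symm.trans (inner_pc_one (G := G) (Ω := Ω))
  have S1 : ∀ j, a (irrOne G) j + ∑ χ ∈ Finset.univ.erase (irrOne G), m χ * a χ j = 2 := fun j => by
    rw [← S j, ← Finset.add_sum_erase _ _ (Finset.mem_univ (irrOne G)), m0, one_mul]
  generalize hR : Finset.univ.erase (irrOne G) = R at *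
  have mR : ∀ χ, χ ∈ R ↔ χ ≠ irrOne G := fun χ => by
    rw [← hR, Finset.mem_erase, and_iff_left (Finset.mem_univ _)]
  have L := fun χ hχ => lt_two_mul_deg hΩ hσ fp χ.2 (Subtype.ext_iff.not.1 ((mR χ).1 hχ)) (m1 χ) (d1 χ).1
  obtain ⟨χ₂, r2, c2⟩ := Finset.exists_ne_zero_of_sum_ne_zero (s := R) (f := fun χ => m χ * a χ 0)
    (by have := S1 0; omega)
  have S0 := S1 0
  have S5 := S1 1
  rw [← Finset.add_sum_erase _ _ r2] at S0 S5 s1 s2
  obtain ⟨c3, c4⟩ : m χ₂ = 1 ∧ a χ₂ 0 = 1 := mul_eq_one.1 (by omega)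
  have S6 : ∀ j, 0 < j → j < p → a χ₂ j = a χ₂ 1 := fun j h1 h2 => by
    obtain ⟨ψ, h3, h4, h5, h6⟩ := T j h1 h2 χ₂
    by_contra n
    have := Finset.sum_eq_zero_iff.1 (show ∑ χ ∈ R.erase χ₂, m χ * a χ 0 = 0 by omega) ψ
      (Finset.mem_erase.2 ⟨fun e => n (e ▸ h6), (mR _).2 fun e => (mR _).1 r2 (h4 e)⟩)
    simp [h3, h5, c3, c4] at this
  have S7 : d χ₂ = 1 + (p - 1) * a χ₂ 1 := by
    rw [← S2, Finset.range_eq_Ico, Finset.sum_eq_sum_Ico_succ_bot hp.out.pos, c4,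
      Finset.sum_congr rfl fun j hj => S6 j (Finset.mem_Ico.1 hj).1 (Finset.mem_Ico.1 hj).2]
    simp
  rw [c3] at S5 s1 s2
  obtain h | h | h : a χ₂ 1 = 0 ∨ a χ₂ 1 = 1 ∨ a χ₂ 1 = 2 := by omega
  · have := L χ₂ r2 (by omega)
    rw [c3, S7, h] at this
    omega
  · obtain ⟨χ₁, r1, c1⟩ := Finset.exists_ne_zero_of_sum_ne_zero (s := R.erase χ₂)
      (f := fun χ => m χ * a χ 1) (by omega)
    rw [← Finset.add_sum_erase _ _ r1] at S5 s1 s2
    have c5 : m χ₁ = 1 := (mul_eq_one.1 (show m χ₁ * a χ₁ 1 = 1 by omega)).1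
    have c6 : ∀ χ ∈ (R.erase χ₂).erase χ₁, m χ = 0 := fun χ hχ => by
      by_contra n
      have h1 := L χ (Finset.mem_of_mem_erase (Finset.mem_of_mem_erase hχ)) n
      have h2 := L χ₁ (Finset.mem_of_mem_erase r1) (by omega)
      have h3 := Finset.single_le_sum (f := fun χ => m χ * d χ) (fun _ _ => Nat.zero_le _) hχ
      rw [h] at S7
      omega
    rw [Finset.sum_eq_zero fun χ hχ => by simp [c6 χ hχ], c5] at s1 s2
    refine .inr ⟨s2.symm, χ₁, χ₂, χ₁.2, χ₂.2, funext fun g => ?_, ?_, ?_⟩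
    · rw [hπ, ← Finset.add_sum_erase _ _ (Finset.mem_univ (irrOne G)), hR, ← Finset.add_sum_erase _ _ r2,
        ← Finset.add_sum_erase _ _ r1, Finset.sum_eq_zero fun χ hχ => by simp [c6 χ hχ], m0, c3, c5]
      simp [irrOne]; ring
    · rw [(d1 _).1, eq_sub_iff_add_eq]; norm_cast; rw [h] at S7; omega
    · rw [(d1 _).1]; norm_cast; rw [h] at S7; omega
  · have c6 : ∀ χ ∈ R.erase χ₂, m χ = 0 := fun χ hχ => by
      have h3 := Finset.single_le_sum (f := fun χ => m χ * d χ) (fun _ _ => Nat.zero_le _) hχ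
      have := (d1 χ).2
      rw [h] at S7
      exact (mul_eq_zero.1 (show m χ * d χ = 0 by omega)).resolve_right this.ne'
    rw [Finset.sum_eq_zero fun χ hχ => by simp [c6 χ hχ]] at s2
    obtain ⟨q, -, hq⟩ := (Nat.card_eq_two_iff' (Quotient.mk _ a₀)).1 s2.symm
    refine .inl (isMultiplyPretransitive_succ_of_fixing_one (k := 1) (is_one_pretransitive_iff.2 inferInstance)
      {a₀} rfl fun x y hx hy => ?_)
    obtain ⟨g, hg⟩ := Quotient.exact ((hq _ (mk_ne_base (G := G) (Finset.notMem_singleton.1 hy))).trans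
      (hq _ (mk_ne_base (G := G) (Finset.notMem_singleton.1 hx))).symm)
    exact ⟨g, fun z hz => by rw [Finset.mem_singleton.1 hz]; exact g.2, hg⟩

end H10
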